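import Cfsg.Agent.Lib.ClassSizes3.CaseTwo

/-!
Class sizes `{1, m, m * n}`: the centralizer of a noncentral element of `n`-prime power order is an
abelian normal subgroup of index `m`.
-/

set_option autoImplicit false

namespace CfsgLib.ClassSizes3

open Subgroup

variable {G : Type*} [Group G] [Finite G] {m n : ℕ}

theorem noII (hs : Sizes G m n) {t : ℕ} (ht : t.Prime) (htn : t ∣ n) {w u : G} (hw : cl w = m * n)
    (hu : u ∈ C w) (hut : PEl t u) : u ∈ center G := by
  have := Fact.mk ht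
  exact (hs.dichotomy htn).resolve_left (fun h => II_false hs htn h) w hw u hu hut

theorem cl_eq_m_of_pel (hs : Sizes G m n) {t : ℕ} (ht : t.Prime) (htn : t ∣ n) {u : G}
    (hut : PEl t u) (huc : u ∉ center G) : cl u = m :=
  (hs.cases huc).resolve_right fun h => huc (noII hs ht htn h (self_mem_C u) hut)

/-- A noncentral primary element commuting with `u` has the same centralizer, if the primes differ. -/
theorem C_eq_of_commute (hs : Sizes G m n) {t p : ℕ} (ht : t.Prime) (htn : t ∣ n) (hp : p.Prime)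
    (hpt : p ≠ t) {u x : G} (hut : PEl t u) (huc : u ∉ center G) (hxp : PEl p x) (hxc : x ∉ center G)
    (hx : x ∈ C u) : C u = C x := by
  have hum := cl_eq_m_of_pel hs ht htn hut huc
  have hxm : cl x = m := (hs.cases hxc).resolve_right fun h => huc (noII hs ht htn h (C_comm hx) hut)
  refine (hs.S_S ht hp hpt.symm hum hxm hut hxp hx).resolve_right ?_
  rintro ⟨hL, hC⟩
  exact huc (noII hs ht htn hL (hC.ge ⟨self_mem_C u, C_comm hx⟩) hut)

/-- The centralizer of `u` is abelian. -/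
theorem le_C_of_mem (hs : Sizes G m n) {t : ℕ} (ht : t.Prime) (htn : t ∣ n) {u x : G}
    (hut : PEl t u) (huc : u ∉ center G) (hx : x ∈ C u) : C u ≤ C x := by
  by_contra hcon
  have hxK : x ∉ centralizer (C u : Set G) := fun h => hcon fun g hg =>
    mem_C.mpr (mem_centralizer_iff.mp h g hg)
  obtain ⟨p, w, hp, hwp, hwz, hwK⟩ := exists_pel_notMem _ hxK
  have hwu : w ∈ C u := (zpowers_le.mpr hx) hwz
  have hwc : w ∉ center G := fun h => hwK (center_le_centralizer _ h)
  refine hwK (mem_centralizer_iff.mpr fun g hg => mem_C.mp ?_)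
  rcases eq_or_ne p t with rfl | hpt
  · obtain ⟨r, hr, hrm⟩ := Nat.exists_prime_and_dvd (show m ≠ 1 by have := hs.one_lt_m; omega)
    have := Fact.mk hr
    obtain ⟨b, hb, hbr, hbc⟩ := hs.exists_r (p := r) hrm huc
    have hrp : r ≠ p := fun h => hs.not_dvd_n hr hrm (h ▸ htn)
    have h1 := C_eq_of_commute hs ht htn hr hrp hut huc hbr hbc hb
    have h2 := C_eq_of_commute hs ht htn hr hrp hwp hwc hbr hbc (C_comm (h1.le hwu))
    exact h2.ge (h1.le hg)
  · exact (C_eq_of_commute hs ht htn hp hpt hut huc hwp hwc hwu).le hg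

theorem C_eq_of_mem (hs : Sizes G m n) {t : ℕ} (ht : t.Prime) (htn : t ∣ n) {u x : G}
    (hut : PEl t u) (huc : u ∉ center G) (hx : x ∈ C u) (hxc : x ∉ center G) : C x = C u :=
  (hs.S_le (cl_eq_m_of_pel hs ht htn hut huc) hxc (le_C_of_mem hs ht htn hut huc hx)).symm

/-- The data of the configuration. -/
structure Datum (G : Type*) [Group G] (m n q : ℕ) (u : G) : Prop where
  sizes : Sizes G m n
  prime : q.Prime
  dvd : q ∣ n
  pel : PEl q u
  noncentral : u ∉ center G

theorem exists_datum (hs : Sizes G m n) : ∃ q u, Datum G m n q u := by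
  obtain ⟨q, hq, hqn⟩ := Nat.exists_prime_and_dvd (show n ≠ 1 by have := hs.one_lt_n; omega)
  have := Fact.mk hq
  obtain ⟨u, hu, huc⟩ := hs.exists_pel_noncentral (p := q) (hqn.mul_left m)
  exact ⟨q, u, hs, hq, hqn, hu, huc⟩

variable {q : ℕ} {u : G}

theorem Datum.cl_u (hd : Datum G m n q u) : cl u = m :=
  cl_eq_m_of_pel hd.sizes hd.prime hd.dvd hd.pel hd.noncentral

theorem Datum.comm (hd : Datum G m n q u) {a b : G} (ha : a ∈ C u) (hb : b ∈ C u) : a * b = b * a :=
  mem_C.mp (le_C_of_mem hd.sizes hd.prime hd.dvd hd.pel hd.noncentral hb ha)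

theorem Datum.C_eq (hd : Datum G m n q u) {a : G} (ha : a ∈ C u) (hac : a ∉ center G) : C a = C u :=
  C_eq_of_mem hd.sizes hd.prime hd.dvd hd.pel hd.noncentral ha hac

theorem Datum.conj (hd : Datum G m n q u) (c : G) : Datum G m n q (c * u * c⁻¹) :=
  ⟨hd.sizes, hd.prime, hd.dvd, hd.pel.conj c, fun h => hd.noncentral (mem_center_conj.mp h)⟩

/-- An element of class size `m` has a conjugate of `C u` as centralizer. -/
theorem Datum.exists_conj_of_S (hd : Datum G m n q u) {x : G} (hx : cl x = m) :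
    ∃ c : G, C x = C (c * u * c⁻¹) := by
  have := Fact.mk hd.prime
  obtain ⟨D, hD⟩ := exists_sylowIn (p := q) (C x)
  obtain ⟨c, -, hc⟩ := (hd.sizes.full_of_S hd.dvd hx hD).conj_mem hd.pel (mem_top u)
  exact ⟨c, (hd.conj c).C_eq (C_comm (hD.le hc)) (hd.sizes.notCenter_S hx)⟩

theorem Datum.not_mem_of_L (hd : Datum G m n q u) {w : G} (hw : cl w = m * n) : w ∉ C u := fun h => by
  have h1 := hd.C_eq h (hd.sizes.notCenter_L hw)
  have h2 := hd.sizes.m_lt
  have h3 : cl u = cl w := by rw [cl, cl, h1]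
  rw [hd.cl_u, hw] at h3
  omega


theorem Datum.center_of_L (hd : Datum G m n q u) {w a : G} (hw : cl w = m * n) (ha : a ∈ C u)
    (haw : a ∈ C w) : a ∈ center G := by
  by_contra hac
  exact hd.not_mem_of_L hw ((hd.C_eq ha hac).le (C_comm haw))

theorem Datum.not_mem_conj (hd : Datum G m n q u) {g a : G} (hg : g ∉ normalizer (C u : Set G))
    (ha : a ∈ C u) (hga : g * a * g⁻¹ ∈ C u) : a ∈ center G := by
  by_contra hac
  refine hg ?_
  have h1 := hd.C_eq hga (fun h => hac (mem_center_conj.mp h))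
  have h2 := hd.C_eq ha hac
  rw [mem_normalizer_iff]
  intro k
  conv_rhs => rw [← h1, mem_C_conj]
  rw [← h2]
  simp [mul_assoc]

/-- A subgroup all of whose `n`-prime power elements are central has order prime to `n` over the centre. -/
theorem coprime_relIndex_center {H : Subgroup G} (hH : center G ≤ H)
    (h : ∀ t : ℕ, t.Prime → t ∣ n → ∀ x ∈ H, PEl t x → x ∈ center G) :
    Nat.Coprime ((center G).relIndex H) n := by
  refine Nat.coprime_of_dvd fun t ht hti htn => ?_
  have := Fact.mk ht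
  rw [relIndex, index_eq_card] at hti
  obtain ⟨x, hx⟩ := exists_prime_orderOf_dvd_card' t hti
  obtain ⟨⟨x, hxH⟩, rfl⟩ := QuotientGroup.mk_surjective x
  have hxc : x ∉ center G := fun h' => by
    rw [(QuotientGroup.eq_one_iff _).mpr (show (⟨x, hxH⟩ : H) ∈ (center G).subgroupOf H from h'), orderOf_one] at hx
    exact ht.one_lt.ne hx
  have hxt : x ^ t ∈ center G := by
    have h1 : (((⟨x, hxH⟩ : H) ^ t : H) : H ⧸ (center G).subgroupOf H) = 1 := by
      rw [QuotientGroup.mk_pow, ← hx, pow_orderOf_eq_one]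
    exact (QuotientGroup.eq_one_iff ((⟨x, hxH⟩ : H) ^ t)).mp h1
  obtain ⟨p, w, hp, hw, hwz, hwc⟩ := exists_pel_notMem (center G) hxc
  obtain ⟨i, rfl⟩ := mem_zpowers_iff.mp hwz
  rcases eq_or_ne p t with rfl | hpt
  · exact hwc (h p ht htn _ (zpow_mem hxH i) hw)
  · obtain ⟨k, hk⟩ := hw
    obtain ⟨a, b, hab⟩ : IsCoprime ((p ^ k : ℕ) : ℤ) (t : ℤ) :=
      Int.isCoprime_iff_nat_coprime.mpr (((Nat.coprime_primes hp ht).mpr hpt).pow_left k)
    refine hwc ?_
    rw [← zpow_one (x ^ i), ← hab, zpow_add, mul_comm a, zpow_mul, zpow_natCast, hk, one_zpow, one_mul,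
      ← zpow_mul, show i * (b * (t : ℤ)) = (t : ℤ) * (i * b) by ring, zpow_mul, zpow_natCast]
    exact zpow_mem hxt _

theorem Datum.exists_t (hd : Datum G m n q u) : ∃ t, t.Coprime n ∧ (center G).relIndex (C u) = n * t ∧
    ∀ w, cl w = m * n → (center G).relIndex (C w) = t := by
  obtain ⟨w₀, hw₀⟩ := hd.sizes.exL
  have key : ∀ w, cl w = m * n → (center G).relIndex (C u) = n * (center G).relIndex (C w) := by
    intro w hw
    have h1 := card_C_mul_cl u
    have h2 := card_C_mul_cl w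
    have h3 := relIndex_mul_relIndex ⊥ (center G) (C u) bot_le (center_le_C u)
    have h4 := relIndex_mul_relIndex ⊥ (center G) (C w) bot_le (center_le_C w)
    rw [relIndex_bot_left, relIndex_bot_left] at h3 h4
    rw [hd.cl_u, ← h3] at h1
    rw [hw, ← h4] at h2
    refine Nat.eq_of_mul_eq_mul_left (Nat.card_pos (α := center G))
      (Nat.eq_of_mul_eq_mul_right (show 0 < m by have := hd.sizes.one_lt_m; omega) ?_)
    rw [h1, ← h2]
    ring
  refine ⟨_, coprime_relIndex_center (center_le_C w₀) ?_, key w₀ hw₀, fun w hw => ?_⟩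
  · exact fun t ht htn x hx hxt => noII hd.sizes ht htn hw₀ hx hxt
  · exact Nat.eq_of_mul_eq_mul_left (show 0 < n by have := hd.sizes.one_lt_n; omega)
      ((key w hw).symm.trans (key w₀ hw₀))

open scoped IsMulCommutative in
theorem card_torsion {W : Type*} [Group W] [Finite W] (hcomm : ∀ a b : W, a * b = b * a) {n t : ℕ}
    (hn : 0 < n) (hco : t.Coprime n) (hW : Nat.card W = n * t) :
    Nat.card {x : W // x ^ n = 1} = n := by
  let φ : W →* W :=
    { toFun := fun x => x ^ n, map_one' := one_pow n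
      map_mul' := fun a b => (show Commute a b from hcomm a b).mul_pow n }
  have hcd : ∀ {H : Subgroup W} {N : ℕ}, (∀ x ∈ H, x ^ N = 1) → ∀ p, p.Prime → p ∣ Nat.card H → p ∣ N := by
    intro H N hH p hp hpd
    have := Fact.mk hp
    obtain ⟨x, hx⟩ := exists_prime_orderOf_dvd_card' p hpd
    rw [← hx, ← Subgroup.orderOf_coe]
    exact orderOf_dvd_of_pow_eq_one (hH x x.2)
  have hmul := card_mul_index φ.ker
  rw [index_ker, hW] at hmul
  have hker : Nat.card φ.ker = Nat.card {x : W // x ^ n = 1} :=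
    Nat.card_congr (Equiv.subtypeEquivRight fun x => Iff.rfl)
  have h1 : Nat.Coprime (Nat.card φ.ker) t := Nat.coprime_of_dvd fun p hp hp1 hp2 =>
    hp.one_lt.ne' (Nat.eq_one_of_dvd_coprimes hco hp2 (hcd (fun x hx => hx) p hp hp1))
  have h2 : Nat.Coprime (Nat.card φ.range) n := Nat.coprime_of_dvd fun p hp hp1 hp2 => by
    refine hp.one_lt.ne' (Nat.eq_one_of_dvd_coprimes hco (hcd ?_ p hp hp1) hp2)
    rintro _ ⟨x, rfl⟩
    show (x ^ n) ^ t = 1
    rw [← pow_mul, ← hW]
    exact pow_card_eq_one'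
  rw [← hker]
  refine Nat.dvd_antisymm (h1.dvd_of_dvd_mul_right ⟨_, hmul.symm⟩) ?_
  exact h2.symm.dvd_of_dvd_mul_right (hmul ▸ dvd_mul_right n t)

theorem relIndex_le_index (H K : Subgroup G) : H.relIndex K ≤ H.index := by
  rw [relIndex, index_eq_card, index_eq_card]
  let f : K ⧸ H.subgroupOf K → G ⧸ H := Quotient.map' (fun x => (x : G)) fun a b h => by
    rw [QuotientGroup.leftRel_apply] at h ⊢
    exact h
  refine Nat.card_le_card_of_injective f fun a b h => ?_
  induction a using Quotient.inductionOn' with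
  | _ a =>
    induction b using Quotient.inductionOn' with
    | _ b =>
      have h' : Quotient.mk'' (a : G) = (Quotient.mk'' (b : G) : G ⧸ H) := h
      exact Quotient.sound' (QuotientGroup.leftRel_apply.mpr
        (QuotientGroup.leftRel_apply.mp (Quotient.exact' h') :))

theorem Datum.pel_mem (hd : Datum G m n q u) {p : ℕ} (hp : p.Prime) {w : G}
    (hwN : w ∈ normalizer (C u : Set G)) (hwp : PEl p w) (hpm : ¬ p ∣ m) : w ∈ C u := by
  set N := normalizer (C u : Set G)
  haveI : ((C u).subgroupOf N).Normal := normal_in_normalizer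
  obtain ⟨k, hk⟩ := hwp
  have he : (C u).relIndex N ∣ m := hd.cl_u ▸ ⟨N.index, (relIndex_mul_index le_normalizer).symm⟩
  have h1 : orderOf ((⟨w, hwN⟩ : N) : N ⧸ (C u).subgroupOf N) ∣ p ^ k := by
    refine (orderOf_map_dvd (QuotientGroup.mk' _) (⟨w, hwN⟩ : N)).trans ?_
    rw [Subgroup.orderOf_mk]
    exact orderOf_dvd_of_pow_eq_one hk
  have h2 : orderOf ((⟨w, hwN⟩ : N) : N ⧸ (C u).subgroupOf N) ∣ m := by
    refine (_root_.orderOf_dvd_natCard _).trans ?_
    rw [← index_eq_card]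
    exact he
  have h3 := Nat.eq_one_of_dvd_coprimes
    ((hp.coprime_iff_not_dvd.mpr hpm).pow_left k) h1 h2
  have := (QuotientGroup.eq_one_iff (N := (C u).subgroupOf N) (⟨w, hwN⟩ : N)).mp
    (orderOf_eq_one_iff.mp h3)
  exact this

/-- The normalizer acts freely on the `n`-torsion of `C u / Z`. -/
theorem Datum.free (hd : Datum G m n q u) {h a : G} (hh : h ∈ normalizer (C u : Set G)) (ha : a ∈ C u)
    (han : a ^ n ∈ center G) (hshift : h * a * h⁻¹ * a⁻¹ ∈ center G) : h ∈ C u ∨ a ∈ center G := by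
  by_contra hcon
  push Not at hcon
  obtain ⟨hh0, hac⟩ := hcon
  obtain ⟨p, w, hp, hwp, hwz, hwA⟩ := exists_pel_notMem (C u) hh0
  have hwN := (zpowers_le.mpr hh) hwz
  have hpn : ¬ p ∣ n := fun hpn => hwA (hd.pel_mem hp hwN hwp (hd.sizes.not_dvd_m hp hpn))
  set Z := center G
  have hq : Commute ((h : G ⧸ Z)) (a : G ⧸ Z) := by
    have h1 : ((h * a * h⁻¹ * a⁻¹ : G) : G ⧸ Z) = 1 := (QuotientGroup.eq_one_iff _).mpr hshift
    rw [QuotientGroup.mk_mul, QuotientGroup.mk_mul, QuotientGroup.mk_mul, QuotientGroup.mk_inv,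
      QuotientGroup.mk_inv, mul_inv_eq_one, mul_inv_eq_iff_eq_mul] at h1
    exact h1
  obtain ⟨i, rfl⟩ := mem_zpowers_iff.mp hwz
  have hw : h ^ i * a * (h ^ i)⁻¹ * a⁻¹ ∈ Z := by
    refine (QuotientGroup.eq_one_iff _).mp ?_
    rw [QuotientGroup.mk_mul, QuotientGroup.mk_mul, QuotientGroup.mk_mul, QuotientGroup.mk_inv,
      QuotientGroup.mk_inv, QuotientGroup.mk_zpow, (hq.zpow_left i).eq, mul_inv_cancel_right,
      mul_inv_cancel]
  have hn : (h ^ i) ^ n ∈ C a := second_exp hw han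
  obtain ⟨k, hk⟩ := hwp
  obtain ⟨j, hj⟩ := exists_pow_eq_self_of_coprime
    (show n.Coprime (orderOf (h ^ i)) from
      (((hp.coprime_iff_not_dvd.mpr hpn).pow_left k).coprime_dvd_left (orderOf_dvd_of_pow_eq_one hk)).symm)
  have hwa : h ^ i ∈ C a := hj ▸ pow_mem hn j
  exact hwA ((hd.C_eq ha hac).le hwa)

/-- The `p`-elements of `C u`. -/
def Datum.part (hd : Datum G m n q u) (p : ℕ) : Subgroup G where
  carrier := {v | v ∈ C u ∧ PEl p v}
  one_mem' := ⟨one_mem _, 0, by simp⟩
  inv_mem' := fun {v} hv => ⟨inv_mem hv.1, hv.2.inv⟩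
  mul_mem' := fun {v w} hv hw => ⟨mul_mem hv.1 hw.1, hv.2.mul hw.2 (hd.comm hv.1 hw.1)⟩

theorem Datum.isPGroup_part (hd : Datum G m n q u) (p : ℕ) : IsPGroup p (hd.part p) := fun v => by
  obtain ⟨k, hk⟩ := v.2.2
  exact ⟨k, Subtype.ext (by rw [SubgroupClass.coe_pow, hk]; rfl)⟩

theorem Datum.sylowIn_part (hd : Datum G m n q u) {p : ℕ} [hp : Fact p.Prime] :
    SylowIn p (C u) (hd.part p) := by
  obtain ⟨D, hD⟩ := exists_sylowIn (p := p) (C u)
  refine ⟨fun v hv => hv.1, hd.isPGroup_part p,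
    le_antisymm (card_le_of_isPGroup (hd.isPGroup_part p) fun v hv => hv.1) ?_⟩
  rw [← hD.card]
  exact card_le_of_le fun v hv => ⟨hD.le hv, PEl.of_mem hD.isPGroup hv⟩

theorem Datum.conj_mem_part (hd : Datum G m n q u) {p : ℕ} {g v : G}
    (hg : g ∈ normalizer (C u : Set G)) (hv : v ∈ hd.part p) : g * v * g⁻¹ ∈ hd.part p :=
  ⟨(mem_normalizer_iff.mp hg v).mp hv.1, hv.2.conj g⟩

theorem Datum.le_normalizer_part (hd : Datum G m n q u) (p : ℕ) :
    normalizer (C u : Set G) ≤ normalizer (hd.part p : Set G) := fun g hg =>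
  mem_normalizer_iff.mpr fun v => ⟨hd.conj_mem_part hg, fun hv => by
    have := hd.conj_mem_part (inv_mem hg) hv
    simpa [mul_assoc] using this⟩

theorem Datum.isMulCommutative_part (hd : Datum G m n q u) (p : ℕ) : IsMulCommutative (hd.part p) :=
  IsMulCommutative.of_comm fun a b => Subtype.ext (hd.comm a.2.1 b.2.1)

theorem Datum.part_not_le_center (hd : Datum G m n q u) : ¬ hd.part q ≤ center G := fun h =>
  hd.noncentral (h ⟨self_mem_C u, hd.pel⟩)

theorem Datum.not_dvd_part (hd : Datum G m n q u) {r : ℕ} (hr : r.Prime) (hrm : r ∣ m) :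
    ¬ r ∣ Nat.card (hd.part q) := fun h => by
  have := Fact.mk hd.prime
  obtain ⟨j, hj⟩ := IsPGroup.iff_card.mp (hd.isPGroup_part q)
  rw [hj] at h
  exact hd.sizes.not_dvd_n hr hrm ((Nat.prime_dvd_prime_iff_eq hr hd.prime).mp (hr.dvd_of_dvd_pow h) ▸ hd.dvd)

/-- The `r`-part of `[G : N(C u)]` is at most that of `[N(C u) : C u]`. -/
theorem Datum.fact_index_le (hd : Datum G m n q u) {r : ℕ} [hr : Fact r.Prime] (hrm : r ∣ m) :
    (normalizer (C u : Set G)).index.factorization r ≤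
      ((C u).relIndex (normalizer (C u : Set G))).factorization r := by
  set N := normalizer (C u : Set G) with hNdef
  rcases Nat.eq_zero_or_pos (N.index.factorization r) with h0 | hpos
  · omega
  obtain ⟨N₁, hN₁⟩ := exists_sylowIn (p := r) N
  obtain ⟨R, hR, hN₁R⟩ := exists_sylowIn_ge (H := ⊤) hN₁.isPGroup le_top
  have hfull : ∀ P : Subgroup G, IsPGroup r P → Nat.card R ≤ Nat.card P → ¬ P ≤ N := by
    intro P hP hcard hle
    have h1 := hcard.trans (card_le_of_isPGroup hP hle)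
    rw [hR.card, card_top, ← card_mul_index N, Nat.factorization_mul Nat.card_pos.ne'
      index_ne_zero_of_finite, Finsupp.add_apply] at h1
    have := (Nat.pow_le_pow_iff_right hr.out.one_lt).mp h1
    omega
  obtain ⟨y, hyR, hyc, hshift, hyr⟩ := hd.sizes.exists_second hrm hR
  have hyN_ : R ≤ normalizer (C y : Set G) := mem_normalizer_C_of_shift hshift
  have hyp : PEl r y := PEl.of_mem hR.isPGroup hyR
  have hyL : cl y = m * n := (hd.sizes.cases hyc).resolve_left fun h => by
    obtain ⟨c, hc⟩ := hd.exists_conj_of_S h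
    refine hfull (R.map (MulAut.conj c⁻¹).toMonoidHom) (hR.isPGroup.map _)
      (le_of_eq (card_map_of_injective (MulAut.conj c⁻¹).injective).symm) ?_
    rintro _ ⟨g, hg, rfl⟩
    refine mem_normalizer_iff.mpr fun k => ?_
    have h1 := mem_normalizer_iff.mp (hyN_ hg) (c * k * c⁻¹)
    simp only [SetLike.mem_coe, hc, mem_C_conj] at h1
    simpa [mul_assoc] using h1
  set D := hd.part r with hDdef
  have hDA : D ≤ C u := fun v hv => hv.1
  obtain ⟨b, hbC, hbr, hbc⟩ := hd.sizes.exists_r (p := r) hrm hd.noncentral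
  have hDN₁ : D ≤ N₁ := fun v hv => by
    obtain ⟨c, hcN, hc⟩ := hN₁.exists_conj (hd.isPGroup_part r) (hDA.trans le_normalizer)
    have := hc _ (hd.conj_mem_part (inv_mem hcN) hv)
    simpa [mul_assoc] using this
  have hDR : D ≤ R := hDN₁.trans hN₁R
  have hN₁eq : R ⊓ N = N₁ := (eq_of_le_of_card_ge (le_inf hN₁R hN₁.le)
    ((card_le_of_isPGroup (hR.isPGroup.to_le inf_le_left) inf_le_right).trans hN₁.card.ge)).symm
  have hDZ : ∀ d ∈ D, d ∈ C y → d ∈ center G := fun d hd' h => hd.center_of_L hyL hd'.1 h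
  have hyN : y ∈ N := by
    have hbD : b ∈ D := ⟨hbC, hbr⟩
    have key : ∀ x, (x = y ∨ x = y⁻¹) → ∀ d ∈ D, x * d * x⁻¹ ∈ D := by
      intro x hx d hd'
      set z := d * y * d⁻¹ * y⁻¹ with hzdef
      have hz : z ∈ center G := hshift d (hDR hd')
      have hzD : z ∈ D := ⟨center_le_C u hz,
        PEl.of_mem hR.isPGroup (mul_mem (mul_mem (mul_mem (hDR hd') hyR) (inv_mem (hDR hd'))) (inv_mem hyR))⟩
      rcases hx with rfl | rfl
      · have e : x * d * x⁻¹ = z⁻¹ * d := by rw [hzdef]; group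
        rw [e]
        exact mul_mem (inv_mem hzD) hd'
      · have e : y⁻¹ * d * y⁻¹⁻¹ = (y⁻¹ * z * y) * d := by rw [hzdef]; group
        rw [e, mem_center_iff.mp hz y⁻¹, inv_mul_cancel_right]
        exact mul_mem hzD hd'
    have hnb : y * b * y⁻¹ ∈ D := key y (Or.inl rfl) b hbD
    rw [hNdef, mem_normalizer_iff]
    intro k
    conv_rhs => rw [← hd.C_eq hnb.1 (fun h => hbc (mem_center_conj.mp h)), mem_C_conj]
    rw [← hd.C_eq hbC hbc]
    simp [mul_assoc]
  have hyN₁ : y ∈ N₁ := hN₁eq ▸ ⟨hyR, hyN⟩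
  have hdr : ∀ d ∈ D, d ^ r ∈ center G := fun d hd' =>
    hDZ _ (pow_mem hd' r) (second_exp (hshift d (hDR hd')) hyr)
  -- a conjugate of `D` inside `N₁`
  obtain ⟨g, hgR, hgn, hgN⟩ : ∃ g ∈ R, (∀ x ∈ N₁, g * x * g⁻¹ ∈ N₁) ∧ g ∉ N := by
    have : Group.IsNilpotent R := hR.isPGroup.isNilpotent
    have hne : N₁.subgroupOf R ≠ ⊤ := fun h => hfull R hR.isPGroup le_rfl
      ((subgroupOf_eq_top.mp h).trans hN₁.le)
    obtain ⟨⟨g, hg⟩, hgn, hgn'⟩ := SetLike.exists_of_lt
      (Group.normalizerCondition_of_isNilpotent (N₁.subgroupOf R) (lt_top_iff_ne_top.mpr hne))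
    refine ⟨g, hg, fun x hx => (mem_normalizer_iff.mp hgn ⟨x, hN₁R hx⟩).mp hx, fun h => hgn' ?_⟩
    show g ∈ N₁
    rw [← hN₁eq]
    exact ⟨hg, h⟩
  set P := D.map (MulAut.conj g).toMonoidHom with hPdef
  have hPN : P ≤ N := by
    rintro _ ⟨d, hd', rfl⟩
    exact hN₁.le (hgn d (hDN₁ hd'))
  set V := hd.part q
  haveI := hd.isMulCommutative_part q
  have hP0z : ∀ x ∈ P ⊓ C u, x ∈ center G := by
    rintro _ ⟨⟨d, hd', rfl⟩, hxA⟩
    exact mem_center_conj.mpr (hd.not_mem_conj hgN hd'.1 hxA)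
  have hdvd := relIndex_dvd_of_semiregular (p := r) (P := P) (P₀ := P ⊓ C u) (V := V) inf_le_left
    (hPN.trans (hd.le_normalizer_part q)) (hd.not_dvd_part hr.out hrm) hd.part_not_le_center
    (fun x hxP hx0 v hv hxv => by
      by_contra hvc
      exact hx0 ⟨hxP, (hd.C_eq hv.1 hvc).le hxv⟩)
    (fun x hx v hv => mem_C.mpr (hd.comm hx.2 hv.1))
    (by
      rintro _ ⟨d, hd', rfl⟩
      refine ⟨pow_mem (mem_map_of_mem _ hd') r, center_le_C u ?_⟩
      rw [← map_pow]
      exact mem_center_conj.mpr (hdr d hd'))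
    (by
      rintro _ ⟨d, hd', rfl⟩ _ ⟨e, he, rfl⟩
      rw [← map_inv, ← map_inv, ← map_mul, ← map_mul, ← map_mul,
        show d * e * d⁻¹ * e⁻¹ = 1 by rw [hd.comm hd'.1 he.1, mul_inv_cancel_right, mul_inv_cancel],
        map_one]
      exact one_mem _)
  set Z₁ := D ⊓ center G with hZ₁
  have hbD : b ∈ D := ⟨hbC, hbr⟩
  have hDcard : Nat.card D = Nat.card Z₁ * r := by
    have h1 := relIndex_mul_relIndex ⊥ (P ⊓ C u) P bot_le inf_le_left
    rw [relIndex_bot_left, relIndex_bot_left] at h1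
    have h2 : P ⊓ C u = Z₁.map (MulAut.conj g).toMonoidHom := by
      refine le_antisymm (fun x hx => ?_) ?_
      · obtain ⟨d, hd', rfl⟩ := hx.1
        exact ⟨d, ⟨hd', mem_center_conj.mp (hP0z _ hx)⟩, rfl⟩
      · rintro _ ⟨d, ⟨hd', hdc⟩, rfl⟩
        exact ⟨mem_map_of_mem _ hd', center_le_C u (mem_center_conj.mpr hdc)⟩
    have h3 : (P ⊓ C u).relIndex P = r := by
      refine ((Nat.dvd_prime hr.out).mp hdvd).resolve_left fun h => hbc ?_
      exact mem_center_conj.mp (hP0z _ ⟨mem_map_of_mem _ hbD, (relIndex_eq_one.mp h (mem_map_of_mem _ hbD)).2⟩)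
    rw [h3, h2, card_map_of_injective (MulAut.conj g).injective, hPdef,
      card_map_of_injective (MulAut.conj g).injective] at h1
    exact h1.symm
  have hC₀ := sylowIn_inf hR hyN_
  set C₀ := R ⊓ C y with hC₀def
  have hfC : (Nat.card (C u)).factorization r = (Nat.card (C y)).factorization r := by
    have h1 := fact_C (p := r) u
    have h2 := fact_C (p := r) y
    rw [hd.sizes.fact_cl (hd.sizes.not_dvd_n hr.out hrm) hd.noncentral] at h1
    rw [hd.sizes.fact_cl (hd.sizes.not_dvd_n hr.out hrm) hyc] at h2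
    omega
  have hC₀card : Nat.card C₀ = Nat.card Z₁ * r := by
    rw [hC₀.card, ← hfC, ← hd.sylowIn_part.card, ← hDdef, hDcard]
  have hyC₀ : y ∈ C₀ := ⟨hyR, self_mem_C y⟩
  have hC₀N₁ : C₀ ≤ N₁ := by
    set X := Z₁ ⊔ zpowers y
    have hXle : X ≤ C₀ := sup_le (le_inf ((inf_le_left).trans hDR) (inf_le_right.trans (center_le_C y)))
      (zpowers_le.mpr hyC₀)
    have hXN : X ≤ N₁ := sup_le (inf_le_left.trans hDN₁) (zpowers_le.mpr hyN₁)
    suffices h : X = C₀ from h ▸ hXN
    refine eq_of_le_of_card_ge hXle ?_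
    obtain ⟨i, hi⟩ := IsPGroup.iff_card.mp (hR.isPGroup.to_le ((inf_le_left : Z₁ ≤ D).trans hDR))
    obtain ⟨j, hj⟩ := IsPGroup.iff_card.mp (hR.isPGroup.to_le (hXle.trans inf_le_left))
    rw [hC₀card, hi, hj, ← pow_succ]
    refine Nat.pow_le_pow_right hr.out.pos ?_
    by_contra hlt
    have heq : Z₁ = X := eq_of_le_of_card_ge le_sup_left
      (by rw [hi, hj]; exact Nat.pow_le_pow_right hr.out.pos (by omega))
    have hyZ : y ∈ Z₁ := heq ▸ mem_sup_right (mem_zpowers y)
    exact hyc hyZ.2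
  have hC₀n : C₀ ≤ normalizer (D : Set G) :=
    (hC₀N₁.trans hN₁.le).trans (hd.le_normalizer_part r)
  set E := C₀ ⊔ D with hEdef
  have hEN₁ : E ≤ N₁ := sup_le hC₀N₁ hDN₁
  have hER : E ≤ R := hEN₁.trans hN₁R
  have hDC₀ : D ⊓ C₀ = Z₁ := by
    refine le_antisymm (fun x hx => ⟨hx.1, hDZ x hx.1 hx.2.2⟩) fun x hx => ⟨hx.1, hDR hx.1, center_le_C y hx.2⟩
  have hEcard : Nat.card E = Nat.card Z₁ * r * r := by
    have h1 := relIndex_mul_relIndex ⊥ D E bot_le le_sup_right
    have hsup : D.relIndex (C₀ ⊔ D) = D.relIndex C₀ := by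
      have hDM : D ≤ normalizer (D : Set G) := le_normalizer
      haveI : (D.subgroupOf (normalizer (D : Set G))).Normal := normal_in_normalizer
      rw [← relIndex_subgroupOf (H := D) (sup_le hC₀n hDM), subgroupOf_sup hC₀n hDM,
        relIndex_sup_right, relIndex_subgroupOf hC₀n]
    rw [relIndex_bot_left, relIndex_bot_left, hEdef, hsup] at h1
    have h2 := relIndex_mul_relIndex ⊥ (D ⊓ C₀) C₀ bot_le inf_le_right
    rw [relIndex_bot_left, relIndex_bot_left, inf_relIndex_right, hDC₀, hC₀card] at h2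
    rw [Nat.eq_of_mul_eq_mul_left Nat.card_pos h2, hDcard] at h1
    exact h1.symm
  have hEn : ∀ x ∈ R, ∀ e ∈ E, x * e * x⁻¹ ∈ E := by
    intro x hx e he
    have hc : x * e * x⁻¹ * e⁻¹ ∈ C₀ :=
      mem_inf.mpr ⟨mul_mem (mul_mem (mul_mem hx (hER he)) (inv_mem hx)) (inv_mem (hER he)),
        second_comm (hshift x hx) (hshift e (hER he))⟩
    have := mul_mem (le_sup_left (a := C₀) (b := D) hc) he
    rwa [inv_mul_cancel_right] at this
  have hcount : Nat.card (R ⧸ N₁.subgroupOf R) ≤ r := by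
    let f : (R ⧸ N₁.subgroupOf R) × {d : D // (d : G) ∉ center G} → {e : E // (e : G) ∉ C₀} :=
      fun p => ⟨⟨(p.1.out : G) * (p.2.1 : G) * (p.1.out : G)⁻¹,
        hEn _ p.1.out.2 _ (le_sup_right (a := C₀) p.2.1.2)⟩, fun h => by
        have hconj := hd.conj (p.1.out : G)
        have hmem : (p.1.out : G) * (p.2.1 : G) * (p.1.out : G)⁻¹ ∈ C ((p.1.out : G) * u * (p.1.out : G)⁻¹) :=
          conj_mem_conj p.2.1.2.1
        exact p.2.2 (mem_center_conj.mp (hconj.center_of_L hyL hmem h.2))⟩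
    have hf : Function.Injective f := by
      rintro ⟨x, ⟨⟨d, hdD⟩, hdc⟩⟩ ⟨x', ⟨⟨d', hdD'⟩, hdc'⟩⟩ h
      have h' : (x.out : G) * d * (x.out : G)⁻¹ = (x'.out : G) * d' * (x'.out : G)⁻¹ :=
        congrArg (fun e : {e : E // (e : G) ∉ C₀} => ((e.1 : E) : G)) h
      have hN' : (x'.out : G)⁻¹ * (x.out : G) ∈ N := by
        by_contra hgN'
        refine hdc (hd.not_mem_conj hgN' hdD.1 ?_)
        rw [show (x'.out : G)⁻¹ * x.out * d * ((x'.out : G)⁻¹ * x.out)⁻¹ =
          (x'.out : G)⁻¹ * ((x.out : G) * d * (x.out : G)⁻¹) * x'.out by group, h']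
        simpa [mul_assoc] using hdD'.1
      have hx : x = x' := by
        rw [← QuotientGroup.out_eq' x, ← QuotientGroup.out_eq' x']
        refine (QuotientGroup.eq.mpr ?_).symm
        rw [mem_subgroupOf]
        exact hN₁eq.le ⟨(x'.out⁻¹ * x.out).2, hN'⟩
      subst hx
      have : d = d' := by simpa using h'
      subst this
      rfl
    have hle := Nat.card_le_card_of_injective f hf
    rw [Nat.card_prod] at hle
    classical
    haveI := Fintype.ofFinite D
    haveI := Fintype.ofFinite E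
    have hsub : ∀ {H K : Subgroup G}, K ≤ H →
        Nat.card {e : H // (e : G) ∉ K} = Nat.card H - Nat.card K := by
      intro H K hKH
      haveI := Fintype.ofFinite H
      have e1 : Nat.card {e : H // (e : G) ∈ K} = Nat.card K :=
        Nat.card_congr ((Equiv.subtypeSubtypeEquivSubtypeInter _ _).trans
          (Equiv.subtypeEquivRight fun x => ⟨fun h => h.2, fun h => ⟨hKH h, h⟩⟩))
      rw [Nat.card_eq_fintype_card, Fintype.card_subtype_compl, ← Nat.card_eq_fintype_card,
        ← Nat.card_eq_fintype_card, e1]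
    have e2 : Nat.card {d : D // (d : G) ∉ center G} = Nat.card {d : D // (d : G) ∉ Z₁} :=
      Nat.card_congr (Equiv.subtypeEquivRight fun d => ⟨fun h h' => h h'.2, fun h h' => h ⟨d.2, h'⟩⟩)
    rw [e2, hsub inf_le_left, hsub (le_sup_left (a := C₀) (b := D)), hEcard, hC₀card, hDcard] at hle
    obtain ⟨r', hr'⟩ : ∃ r', r = r' + 1 := ⟨r - 1, by have := hr.out.pos; omega⟩
    have hr1 : 1 ≤ r' := by have := hr.out.two_le; omega
    have hz : 0 < Nat.card Z₁ := Nat.card_pos
    rw [hr'] at hle ⊢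
    rw [show Nat.card Z₁ * (r' + 1) - Nat.card Z₁ = Nat.card Z₁ * r' by rw [mul_add_one, Nat.add_sub_cancel],
      show Nat.card Z₁ * (r' + 1) * (r' + 1) - Nat.card Z₁ * (r' + 1) = (r' + 1) * (Nat.card Z₁ * r') by
        rw [mul_add_one (Nat.card Z₁ * (r' + 1)), Nat.add_sub_cancel]; ring] at hle
    exact Nat.le_of_mul_le_mul_right hle (Nat.mul_pos hz hr1)
  rw [← index_eq_card] at hcount
  have h1 := relIndex_mul_relIndex ⊥ N₁ R bot_le hN₁R
  rw [relIndex_bot_left, relIndex_bot_left, hN₁.card, hR.card, card_top, ← card_mul_index N,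
    Nat.factorization_mul Nat.card_pos.ne' index_ne_zero_of_finite, Finsupp.add_apply, pow_add] at h1
  have h2 : N₁.relIndex R = r ^ N.index.factorization r :=
    Nat.eq_of_mul_eq_mul_left (pow_pos hr.out.pos _) h1
  rw [show (N₁.subgroupOf R).index = N₁.relIndex R from rfl, h2] at hcount
  have h3 : N.index.factorization r ≤ 1 :=
    (Nat.pow_le_pow_iff_right hr.out.one_lt).mp (by rwa [pow_one])
  refine h3.trans (hr.out.factorization_pos_of_dvd (show (C u).relIndex N ≠ 0 from index_ne_zero_of_finite) ?_)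
  by_contra hnd
  have h4 : (Nat.card N).factorization r = (Nat.card (C u)).factorization r := by
    have h5 := relIndex_mul_relIndex ⊥ (C u) N bot_le le_normalizer
    rw [relIndex_bot_left, relIndex_bot_left] at h5
    rw [← h5, Nat.factorization_mul Nat.card_pos.ne' (show (C u).relIndex N ≠ 0 from index_ne_zero_of_finite),
      Finsupp.add_apply, Nat.factorization_eq_zero_of_not_dvd hnd, add_zero]
  have h6 : D = N₁ := eq_of_le_of_card_ge hDN₁ (by rw [hN₁.card, h4, ← hd.sylowIn_part.card])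
  exact hd.not_mem_of_L hyL (hDA (h6 ▸ hyN₁))

/-- `C u` is normal. -/
theorem Datum.normal (hd : Datum G m n q u) : (C u).Normal := by
  by_contra hnn
  set N := normalizer (C u : Set G) with hN
  have hkm : (C u).relIndex N * N.index = m := (relIndex_mul_index le_normalizer).trans hd.cl_u
  have hkdvd : N.index ∣ (C u).relIndex N := by
    refine (Nat.factorization_le_iff_dvd index_ne_zero_of_finite
      (show (C u).relIndex N ≠ 0 from index_ne_zero_of_finite)).mp fun r => ?_
    by_cases hr : r.Prime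
    · by_cases hrk : r ∣ N.index
      · have := Fact.mk hr
        exact hd.fact_index_le (hkm ▸ hrk.mul_left _)
      · rw [Nat.factorization_eq_zero_of_not_dvd hrk]; exact Nat.zero_le _
    · rw [Nat.factorization_eq_zero_of_not_prime _ hr]; exact Nat.zero_le _
  obtain ⟨t, htn, hAt, -⟩ := hd.exists_t
  -- the number of conjugates
  have hk : n ≤ N.index := by
    obtain ⟨c, hc⟩ : ∃ c, c ∉ N := by
      by_contra h
      push Not at h
      exact hnn (normalizer_eq_top_iff.mp (eq_top_iff.mpr fun g _ => h g))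
    set N' := N.comap (MulAut.conj c⁻¹).toMonoidHom with hN'
    have hidx : N'.index = N.index := index_comap_of_surjective _ (MulAut.conj c⁻¹).surjective
    refine le_trans ?_ ((relIndex_le_index N' (C u)).trans hidx.le)
    have hcen : center G ≤ N' ⊓ C u := by
      refine le_inf (fun z hz => ?_) (center_le_C u)
      rw [hN', mem_comap]
      exact le_normalizer (center_le_C u (mem_center_conj.mpr hz))
    have hco : Nat.Coprime ((center G).relIndex (N' ⊓ C u)) n := by
      refine coprime_relIndex_center hcen fun p hp hpn x hx hxp => ?_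
      by_contra hxc
      have h1 : c⁻¹ * x * c⁻¹⁻¹ ∈ C u := hd.pel_mem hp hx.1 (hxp.conj c⁻¹) (hd.sizes.not_dvd_m hp hpn)
      exact hxc (hd.not_mem_conj (fun h => hc (inv_mem_iff.mp h)) hx.2 h1)
    have h2 := relIndex_mul_relIndex (center G) (N' ⊓ C u) (C u) hcen inf_le_right
    rw [hAt, inf_relIndex_right] at h2
    exact Nat.le_of_dvd (Nat.pos_of_ne_zero (show N'.relIndex (C u) ≠ 0 from index_ne_zero_of_finite))
      (hco.symm.dvd_of_dvd_mul_left (h2 ▸ dvd_mul_right n t))
  -- the free action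
  have he : (C u).relIndex N + 1 ≤ n := by
    set W := C u ⧸ (center G).subgroupOf (C u)
    have hWcomm : ∀ a b : W, a * b = b * a := by
      intro a b
      obtain ⟨a, rfl⟩ := QuotientGroup.mk_surjective a
      obtain ⟨b, rfl⟩ := QuotientGroup.mk_surjective b
      rw [← QuotientGroup.mk_mul, ← QuotientGroup.mk_mul]
      exact congrArg QuotientGroup.mk (Subtype.ext (hd.comm a.2 b.2))
    have hWcard : Nat.card W = n * t := (index_eq_card _).symm.trans hAt
    have hn0 : 0 < n := by have := hd.sizes.one_lt_n; omega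
    have hT := card_torsion hWcomm hn0 htn hWcard
    classical
    haveI := Fintype.ofFinite W
    obtain ⟨⟨a₀, ha₀⟩, hne₀⟩ : ∃ x : {x : W // x ^ n = 1}, x.1 ≠ 1 := by
      by_contra h
      push Not at h
      have : Subsingleton {x : W // x ^ n = 1} := ⟨fun a b => Subtype.ext ((h a).trans (h b).symm)⟩
      have h1 : Nat.card {x : W // x ^ n = 1} ≤ 1 := Finite.card_le_one_iff_subsingleton.mpr this
      have := hd.sizes.one_lt_n
      omega
    obtain ⟨⟨a, ha⟩, rfl⟩ := QuotientGroup.mk_surjective a₀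
    have han : a ^ n ∈ center G :=
      (QuotientGroup.eq_one_iff ((⟨a, ha⟩ : C u) ^ n)).mp ((QuotientGroup.mk_pow _ _ _).trans ha₀)
    have hac : a ∉ center G := fun h => hne₀ ((QuotientGroup.eq_one_iff _).mpr h)
    let f : N ⧸ (C u).subgroupOf N → {x : {x : W // x ^ n = 1} // x.1 ≠ 1} := fun h =>
      ⟨⟨((⟨(h.out : G) * a * (h.out : G)⁻¹, (mem_normalizer_iff.mp h.out.2 a).mp ha⟩ : C u) : W), by
        rw [← QuotientGroup.mk_pow, QuotientGroup.eq_one_iff, mem_subgroupOf, SubgroupClass.coe_pow,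
          conj_pow]
        exact mem_center_conj.mpr han⟩, fun h' => hac ((mem_center_conj (g := (h.out : G))).mp ((QuotientGroup.eq_one_iff
          (⟨(h.out : G) * a * (h.out : G)⁻¹, (mem_normalizer_iff.mp h.out.2 a).mp ha⟩ : C u)).mp h'))⟩
    have hf : Function.Injective f := by
      intro h h' hhh
      have h1 := congrArg (fun x : {x : {x : W // x ^ n = 1} // x.1 ≠ 1} => x.1.1) hhh
      simp only [f] at h1
      rw [QuotientGroup.eq, mem_subgroupOf] at h1
      simp only [Subgroup.coe_mul, Subgroup.coe_inv] at h1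
      have h2 : (h.out : G)⁻¹ * h'.out * a * ((h.out : G)⁻¹ * h'.out)⁻¹ * a⁻¹ ∈ center G := by
        have h3 := mem_center_conj (g := a * (h.out : G)⁻¹) |>.mpr h1
        rw [show a * (h.out : G)⁻¹ * (((h.out : G) * a * (h.out : G)⁻¹)⁻¹ *
          ((h'.out : G) * a * (h'.out : G)⁻¹)) * (a * (h.out : G)⁻¹)⁻¹ =
          (h.out : G)⁻¹ * h'.out * a * ((h.out : G)⁻¹ * h'.out)⁻¹ * a⁻¹ by group] at h3
        exact h3
      rw [← QuotientGroup.out_eq' h, ← QuotientGroup.out_eq' h', QuotientGroup.eq, mem_subgroupOf]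
      exact (hd.free (mul_mem (inv_mem h.out.2) h'.out.2) ha han h2).resolve_right hac
    have hle := Nat.card_le_card_of_injective f hf
    rw [← index_eq_card, show ((C u).subgroupOf N).index = (C u).relIndex N from rfl] at hle
    have hcompl : Nat.card {x : {x : W // x ^ n = 1} // x.1 ≠ 1} = n - 1 := by
      have h1 : Fintype.card {x : {x : W // x ^ n = 1} // x.1 = 1} = 1 :=
        Fintype.card_eq_one_iff.mpr ⟨⟨⟨1, one_pow n⟩, rfl⟩, fun x => Subtype.ext (Subtype.ext x.2)⟩
      rw [Nat.card_eq_fintype_card, Fintype.card_subtype_compl, ← Nat.card_eq_fintype_card, hT, h1]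
    rw [hcompl] at hle
    omega
  have := Nat.le_of_dvd (Nat.pos_of_ne_zero (show (C u).relIndex N ≠ 0 from index_ne_zero_of_finite)) hkdvd
  omega

end CfsgLib.ClassSizes3
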