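import Cfsg.Agent.Lib.ClassSizes3.Sizes

/-!
Class sizes `{1, m, m * n}`: for no prime `q ∣ n` does every element commute with a noncentral
`q`-element.
-/

set_option autoImplicit false

namespace CfsgLib.ClassSizes3

open Subgroup

variable {G : Type*} [Group G] [Finite G] {m n : ℕ}

omit [Finite G] in
theorem second_exp {r : ℕ} {y g : G} (h : g * y * g⁻¹ * y⁻¹ ∈ center G) (hy : y ^ r ∈ center G) :
    g ^ r ∈ C y := by
  set z := g * y * g⁻¹ * y⁻¹ with hz
  have hgy : g * y * g⁻¹ = z * y := by rw [hz, inv_mul_cancel_right]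
  have hiter : ∀ i : ℕ, g ^ i * y * (g ^ i)⁻¹ = z ^ i * y := by
    intro i
    induction i with
    | zero => simp
    | succ i ih =>
      calc g ^ (i + 1) * y * (g ^ (i + 1))⁻¹ = g * (g ^ i * y * (g ^ i)⁻¹) * g⁻¹ := by
            rw [pow_succ']; group
        _ = (g * z ^ i * g⁻¹) * (g * y * g⁻¹) := by rw [ih]; group
        _ = z ^ i * (z * y) := by rw [mem_center_iff.mp (pow_mem h i) g, mul_inv_cancel_right, hgy]
        _ = z ^ (i + 1) * y := by rw [← mul_assoc, ← pow_succ]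
  have hzr : z ^ r = 1 := by
    have h1 : (g * y * g⁻¹) ^ r = y ^ r := by
      rw [conj_pow, mem_center_iff.mp hy g, mul_inv_cancel_right]
    rw [hgy, (show Commute z y from (mem_center_iff.mp h y).symm).mul_pow] at h1
    exact mul_eq_right.mp h1
  have := hiter r
  rw [hzr, one_mul] at this
  exact mem_C.mpr (mul_inv_eq_iff_eq_mul.mp this)

omit [Finite G] in
theorem second_comm {y a b : G} (ha : a * y * a⁻¹ * y⁻¹ ∈ center G)
    (hb : b * y * b⁻¹ * y⁻¹ ∈ center G) : a * b * a⁻¹ * b⁻¹ ∈ C y := by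
  set z := a * y * a⁻¹ * y⁻¹ with hz
  set w := b * y * b⁻¹ * y⁻¹ with hw
  have h1 : a * y * a⁻¹ = z * y := by rw [hz, inv_mul_cancel_right]
  have h2 : b * y * b⁻¹ = w * y := by rw [hw, inv_mul_cancel_right]
  have h1' : a⁻¹ * y * a = z⁻¹ * y := by
    have h : y = z * (a⁻¹ * y * a) := by
      calc y = a⁻¹ * (a * y * a⁻¹) * a := by group
        _ = a⁻¹ * z * y * a := by rw [h1]; group
        _ = z * (a⁻¹ * y * a) := by rw [mem_center_iff.mp ha a⁻¹]; group
    rw [eq_inv_mul_iff_mul_eq]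
    exact h.symm
  have h2' : b⁻¹ * y * b = w⁻¹ * y := by
    have h : y = w * (b⁻¹ * y * b) := by
      calc y = b⁻¹ * (b * y * b⁻¹) * b := by group
        _ = b⁻¹ * w * y * b := by rw [h2]; group
        _ = w * (b⁻¹ * y * b) := by rw [mem_center_iff.mp hb b⁻¹]; group
    rw [eq_inv_mul_iff_mul_eq]
    exact h.symm
  rw [mem_C, ← mul_inv_eq_iff_eq_mul]
  calc a * b * a⁻¹ * b⁻¹ * y * (a * b * a⁻¹ * b⁻¹)⁻¹
      = a * b * (a⁻¹ * (b⁻¹ * y * b) * a) * b⁻¹ * a⁻¹ := by group
    _ = a * b * (a⁻¹ * w⁻¹ * a * (a⁻¹ * y * a)) * b⁻¹ * a⁻¹ := by rw [h2']; group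
    _ = a * b * (w⁻¹ * (z⁻¹ * y)) * b⁻¹ * a⁻¹ := by
        rw [h1', mem_center_iff.mp (inv_mem hb) a⁻¹, inv_mul_cancel_right]
    _ = a * (b * w⁻¹ * b⁻¹ * (b * z⁻¹ * b⁻¹) * (b * y * b⁻¹)) * a⁻¹ := by group
    _ = a * (w⁻¹ * z⁻¹ * (w * y)) * a⁻¹ := by
        rw [h2, mem_center_iff.mp (inv_mem hb) b, mul_inv_cancel_right,
          mem_center_iff.mp (inv_mem ha) b, mul_inv_cancel_right]
    _ = a * z⁻¹ * a⁻¹ * (a * y * a⁻¹) := by
        rw [← mul_assoc (w⁻¹ * z⁻¹) w y, mem_center_iff.mp hb (w⁻¹ * z⁻¹), ← mul_assoc w,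
          mul_inv_cancel, one_mul]
        group
    _ = y := by rw [h1, mem_center_iff.mp (inv_mem ha) a, mul_inv_cancel_right, inv_mul_cancel_left]

section

variable (hs : Sizes G m n) {q : ℕ} [hq : Fact q.Prime] (hqn : q ∣ n) (hII : II G q)
include hs hqn hII

/-- No element of class size `m` has order a power of a prime other than `q`. -/
theorem no_S_coprime {p : ℕ} (hp : p.Prime) (hpq : p ≠ q) {y : G} (hy : cl y = m) (hyp : PEl p y) :
    False := by
  obtain ⟨g, hg⟩ := CfsgLib.ClassGraph.exists_forall_conj_notMem (A := C y)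
    (fun h => hs.notCenter_S hy (C_eq_top.mp h))
  have hgc : g ∉ center G := fun h => by
    have := hg 1
    rw [one_mul, inv_one, mul_one] at this
    exact this (center_le_C y h)
  obtain ⟨u, hu, huq, huc⟩ := hII g hgc
  suffices h : ∃ c : G, C (c * u * c⁻¹) ≤ C y by
    obtain ⟨c, hc⟩ := h
    exact hg c (hc (conj_mem_conj (C_comm hu)))
  obtain ⟨D, hD⟩ := exists_sylowIn (p := q) (C y)
  have hDf := hs.full_of_S hqn hy hD
  rcases hs.cases huc with hum | hul
  · obtain ⟨D', hD'⟩ := exists_sylowIn (p := q) (C u)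
    have hD'f := hs.full_of_S hqn hum hD'
    have huD' : u ∈ D' := hD'.mem_of_normalizes huq (self_mem_C u) (centralizer_le_normalizer _
      (mem_centralizer_iff.mpr fun d hd => mem_C.mp (hD'.le hd)))
    obtain ⟨c, -, hc⟩ := hDf.exists_conj hD'.isPGroup le_top
    have hu'y : c * u * c⁻¹ ∈ C y := hD.le (hc u huD')
    refine ⟨c, ?_⟩
    rcases hs.S_S hq.out hp hpq.symm (x := c * u * c⁻¹) (y := y) (by rw [cl_conj, hum]) hy
      (huq.conj c) hyp (C_comm hu'y) with h | ⟨h1, h2⟩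
    · exact h.le
    · exfalso
      have hle : D'.map (MulAut.conj c).toMonoidHom ≤ C (c * u * c⁻¹ * y) := by
        rintro _ ⟨a, ha, rfl⟩
        rw [h2]
        exact ⟨conj_mem_conj (hD'.le ha), hD.le (hc a ha)⟩
      have h3 := card_le_of_isPGroup (hD'.isPGroup.map (MulAut.conj c).toMonoidHom) hle
      rw [card_map_of_injective (MulAut.conj c).injective, hD'f.card, card_top] at h3
      have h4 := (Nat.pow_le_pow_iff_right hq.out.one_lt).mp h3
      have h5 := fact_C (p := q) (c * u * c⁻¹ * y)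
      have h6 := hq.out.factorization_pos_of_dvd
        (show cl (c * u * c⁻¹ * y) ≠ 0 from index_ne_zero_of_finite) (h1 ▸ hqn.mul_left m)
      omega
  · obtain ⟨c, -, hc⟩ := hDf.conj_mem huq (mem_top u)
    exact ⟨c, hs.L_coprime hq.out hp hpq.symm (by rw [cl_conj, hul]) (huq.conj c) hyp
      (C_comm (hD.le hc))⟩

theorem exists_S_pel : ∃ u : G, cl u = m ∧ PEl q u := by
  obtain ⟨x, hx⟩ := hs.exS
  obtain ⟨p, w, hp, hw, hle, hwc⟩ := exists_pel_noncentral (hs.notCenter_S hx)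
  have hwm : cl w = m := by rw [← hx, cl, cl, hs.S_le hx hwc hle]
  rcases eq_or_ne p q with rfl | hpq
  · exact ⟨w, hwm, hw⟩
  · exact (no_S_coprime hs hqn hII hp hpq hwm hw).elim

theorem L_of_pel {p : ℕ} (hp : p.Prime) (hpq : p ≠ q) {b : G} (hb : b ∉ center G) (hbp : PEl p b) :
    cl b = m * n :=
  (hs.cases hb).resolve_left fun h => no_S_coprime hs hqn hII hp hpq h hbp

theorem prime_eq {t : ℕ} (ht : t.Prime) (htn : t ∣ n) : t = q := by
  by_contra htq
  have := Fact.mk ht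
  rcases hs.dichotomy htn with h | h
  · obtain ⟨u, hu, huq⟩ := exists_S_pel hs hqn hII
    exact no_S_coprime hs htn h hq.out (fun e => htq e.symm) hu huq
  · obtain ⟨v, hv, hvc⟩ := hs.exists_pel_noncentral (p := t) (htn.mul_left m)
    exact hvc (h v (L_of_pel hs hqn hII ht htq hvc hv) v (self_mem_C v) hv)

theorem n_eq_pow : n = q ^ n.primeFactorsList.length :=
  Nat.eq_prime_pow_of_unique_prime_dvd (by have := hs.one_lt_n; omega)
    fun hd hdn => prime_eq hs hqn hII hd hdn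

theorem exists_eq_pow_of_dvd {d : ℕ} (hd : d ∣ n) : ∃ j, d = q ^ j := by
  rw [n_eq_pow hs hqn hII] at hd
  obtain ⟨j, -, hj⟩ := (Nat.dvd_prime_pow hq.out).mp hd
  exact ⟨j, hj⟩

omit hII in
theorem r_ne {r : ℕ} (hr : r.Prime) (hrm : r ∣ m) : r ≠ q := fun h =>
  hs.not_dvd_n hr hrm (h ▸ hqn)

omit hII in
theorem exists_prime_dvd_m : ∃ r, r.Prime ∧ r ∣ m :=
  Nat.exists_prime_and_dvd (by have := hs.one_lt_m; omega)

/-- The `q`-elements of the centralizer of a noncentral element of order prime to `q`. -/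
def qPart {r : ℕ} (hr : r.Prime) (hrq : r ≠ q) (b : G) (hb : b ∉ center G) (hbr : PEl r b) :
    Subgroup G where
  carrier := {v | v ∈ C b ∧ PEl q v}
  one_mem' := ⟨one_mem _, 0, by simp⟩
  inv_mem' := fun {v} hv => ⟨inv_mem hv.1, hv.2.inv⟩
  mul_mem' := fun {v w} hv hw => ⟨mul_mem hv.1 hw.1, hv.2.mul hw.2
    (mem_C.mp (hs.L_coprime hr hq.out hrq (L_of_pel hs hqn hII hr hrq hb hbr) hbr hv.2 hv.1 hw.1)).symm⟩

theorem C_le_centralizer_qPart {r : ℕ} (hr : r.Prime) (hrq : r ≠ q) {b : G} (hb : b ∉ center G)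
    (hbr : PEl r b) :
    C b ≤ centralizer ((qPart hs hqn hII hr hrq b hb hbr : Subgroup G) : Set G) := fun g hg =>
  mem_centralizer_iff.mpr fun v hv =>
    (mem_C.mp (hs.L_coprime hr hq.out hrq (L_of_pel hs hqn hII hr hrq hb hbr) hbr hv.2 hv.1 hg)).symm

theorem isPGroup_qPart {r : ℕ} (hr : r.Prime) (hrq : r ≠ q) {b : G} (hb : b ∉ center G)
    (hbr : PEl r b) : IsPGroup q (qPart hs hqn hII hr hrq b hb hbr) := fun v => by
  obtain ⟨k, hk⟩ := v.2.2
  exact ⟨k, Subtype.ext (by rw [SubgroupClass.coe_pow, hk]; rfl)⟩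

theorem fact_m_eq_one {r : ℕ} (hr : r.Prime) (hrm : r ∣ m) : m.factorization r = 1 := by
  have := Fact.mk hr
  have hrq := r_ne hs hqn hr hrm
  obtain ⟨R, hR⟩ := exists_sylowIn (p := r) (⊤ : Subgroup G)
  obtain ⟨y, hyR, hyc, hshift, hyr⟩ := hs.exists_second hrm hR
  have hyp : PEl r y := PEl.of_mem hR.isPGroup hyR
  have hn := mem_normalizer_C_of_shift hshift
  have hC0 := sylowIn_inf hR hn
  set V := qPart hs hqn hII hr hrq y hyc hyp with hVdef
  obtain ⟨v, hv, hvq, hvc⟩ := hII y hyc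
  haveI hVc : IsMulCommutative V := IsMulCommutative.of_comm fun a b =>
    Subtype.ext (mem_centralizer_iff.mp (C_le_centralizer_qPart hs hqn hII hr hrq hyc hyp b.2.1) a a.2)
  have hPV : R ≤ normalizer (V : Set G) := by
    intro g hg
    have key : ∀ g ∈ R, ∀ v ∈ V, g * v * g⁻¹ ∈ V := fun g hg v hv =>
      ⟨(mem_normalizer_iff.mp (hn hg) v).mp hv.1, hv.2.conj g⟩
    refine mem_normalizer_iff.mpr fun w => ⟨key g hg w, fun hw => ?_⟩
    have := key g⁻¹ (inv_mem hg) _ hw
    simpa [mul_assoc] using this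
  have hVp : ¬ r ∣ Nat.card V := fun h => by
    obtain ⟨j, hj⟩ := IsPGroup.iff_card.mp (isPGroup_qPart hs hqn hII hr hrq hyc hyp)
    rw [← hVdef] at hj
    rw [hj] at h
    exact hrq ((Nat.prime_dvd_prime_iff_eq hr hq.out).mp (hr.dvd_of_dvd_pow h))
  have hdvd := relIndex_dvd_of_semiregular (p := r) (P := R) (P₀ := R ⊓ C y) (V := V) inf_le_left hPV hVp
    (fun h => hvc (h ⟨hv, hvq⟩))
    (fun g hg hg0 w hw hgw => by
      by_contra hwc
      have hle : C y ≤ C w :=
        hs.L_coprime hr hq.out hrq (L_of_pel hs hqn hII hr hrq hyc hyp) hyp hw.2 hw.1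
      have hP : IsPGroup r ((R ⊓ C y) ⊔ zpowers g : Subgroup G) :=
        hR.isPGroup.to_le (sup_le inf_le_left (zpowers_le.mpr hg))
      have h1 := card_le_of_isPGroup hP (sup_le (inf_le_right.trans hle) (zpowers_le.mpr hgw))
      have h2 := fact_C (p := r) y
      have h3 := fact_C (p := r) w
      rw [hs.fact_cl (hs.not_dvd_n hr hrm) hyc] at h2
      rw [hs.fact_cl (hs.not_dvd_n hr hrm) hwc] at h3
      rw [show (Nat.card (C w)).factorization r = (Nat.card (C y)).factorization r by omega, ← hC0.card] at h1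
      exact hg0 ((eq_of_le_of_card_ge le_sup_left h1).ge (mem_sup_right (mem_zpowers g))))
    (fun g hg w hw =>
      hs.L_coprime hr hq.out hrq (L_of_pel hs hqn hII hr hrq hyc hyp) hyp hw.2 hw.1 hg.2)
    (fun g hg => mem_inf.mpr ⟨pow_mem hg r, second_exp (hshift g hg) hyr⟩)
    (fun a ha b hb => mem_inf.mpr ⟨mul_mem (mul_mem (mul_mem ha hb) (inv_mem ha)) (inv_mem hb),
      second_comm (hshift a ha) (hshift b hb)⟩)
  have hmul := relIndex_mul_relIndex ⊥ (R ⊓ C y) R bot_le inf_le_left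
  rw [relIndex_bot_left, relIndex_bot_left, hC0.card, hR.card, card_top] at hmul
  have h1 : r ^ (Nat.card G).factorization r ≤ r ^ ((Nat.card (C y)).factorization r + 1) := by
    rw [← hmul, pow_succ]
    exact Nat.mul_le_mul_left _ (Nat.le_of_dvd hr.pos hdvd)
  have h2 := (Nat.pow_le_pow_iff_right hr.one_lt).mp h1
  have h3 := fact_C (p := r) y
  rw [hs.fact_cl (hs.not_dvd_n hr hrm) hyc] at h3
  have h4 := hr.factorization_pos_of_dvd (by have := hs.one_lt_m; omega) hrm
  omega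

/-- The normalizer of a `q`-part has `q`-power index. -/
theorem index_normalizer_qPart {r : ℕ} (hr : r.Prime) (hrm : r ∣ m) {g : G} (hg : g ∉ center G)
    (hgr : PEl r g) : ∃ j, (normalizer ((qPart hs hqn hII hr (r_ne hs hqn hr hrm) g hg hgr : Subgroup G) :
      Set G)).index = q ^ j := by
  have := Fact.mk hr
  have hrq := r_ne hs hqn hr hrm
  set V := qPart hs hqn hII hr hrq g hg hgr with hVdef
  set N := normalizer (V : Set G) with hN
  have hgL := L_of_pel hs hqn hII hr hrq hg hgr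
  have hCN : C g ≤ N :=
    (C_le_centralizer_qPart hs hqn hII hr hrq hg hgr).trans (centralizer_le_normalizer _)
  have hdvd : N.index ∣ n * m := by
    rw [mul_comm, ← hgL]
    exact index_dvd_of_le hCN
  refine exists_eq_pow_of_dvd hs hqn hII ((Nat.Coprime.dvd_of_dvd_mul_right ?_) hdvd)
  refine Nat.coprime_of_dvd fun s hsp hsN hsm => ?_
  have := Fact.mk hsp
  have hsq := r_ne hs hqn hsp hsm
  obtain ⟨D, hD⟩ := exists_sylowIn (p := s) (C g)
  obtain ⟨S, hS, hDS⟩ := exists_sylowIn_ge (H := ⊤) hD.isPGroup le_top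
  have hCD : centralizer (D : Set G) ≤ C g := by
    intro x hx
    rcases eq_or_ne s r with rfl | hsr
    · exact mem_C.mpr (mem_centralizer_iff.mp hx g (hD.mem_of_normalizes hgr (self_mem_C g)
        (centralizer_le_normalizer _ (mem_centralizer_iff.mpr fun d hd => mem_C.mp (hD.le hd))))).symm
    · obtain ⟨a, haC, has, hac⟩ := hs.exists_r (p := s) hsm hg
      obtain ⟨a, haD, has, hac⟩ := hD.exists_noncentral has haC hac
      have hle : C g ≤ C a := hs.L_coprime hr hsp hsr.symm hgL hgr has (hD.le haD)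
      rw [hs.L_le (L_of_pel hs hqn hII hsp hsq hac has) hle]
      exact mem_C.mpr (mem_centralizer_iff.mp hx a haD).symm
  have hVD : ∀ v, v ∈ V ↔ v ∈ centralizer (D : Set G) ∧ PEl q v := by
    refine fun v => ⟨fun hv => ⟨mem_centralizer_iff.mpr fun d hd => ?_, hv.2⟩, fun hv => ⟨hCD hv.1, hv.2⟩⟩
    exact (mem_centralizer_iff.mp (C_le_centralizer_qPart hs hqn hII hr hrq hg hgr (hD.le hd)) v hv).symm
  -- `D` has index `s` in `S`, hence is normal
  have hidx : D.relIndex S = s := by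
    have hmul := relIndex_mul_relIndex ⊥ D S bot_le hDS
    rw [relIndex_bot_left, relIndex_bot_left, hD.card, hS.card, card_top, ← fact_C (p := s) g,
      hs.fact_cl (hs.not_dvd_n hsp hsm) hg, fact_m_eq_one hs hqn hII hsp hsm, pow_succ] at hmul
    exact Nat.eq_of_mul_eq_mul_left (pow_pos hsp.pos _) hmul
  have hDn : (D.subgroupOf S).Normal := by
    have : Group.IsNilpotent S := hS.isPGroup.isNilpotent
    rw [← normalizer_eq_top_iff]
    have hne : D.subgroupOf S ≠ ⊤ := fun h => by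
      rw [relIndex, h, index_top] at hidx
      exact hsp.one_lt.ne hidx
    have hlt := Group.normalizerCondition_of_isNilpotent (D.subgroupOf S) (lt_top_iff_ne_top.mpr hne)
    have h1 : (normalizer ((D.subgroupOf S : Subgroup S) : Set S)).index ∣ s :=
      (index_dvd_of_le le_normalizer).trans (dvd_of_eq hidx)
    rcases (Nat.dvd_prime hsp).mp h1 with h | h
    · exact index_eq_one.mp h
    · exfalso
      refine hlt.ne (eq_of_le_of_card_ge le_normalizer ?_)
      have h2 := card_mul_index (D.subgroupOf S)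
      rw [← card_mul_index (normalizer ((D.subgroupOf S : Subgroup S) : Set S)), h,
        show (D.subgroupOf S).index = s from hidx] at h2
      exact (Nat.eq_of_mul_eq_mul_right hsp.pos h2).ge
  have hSN : S ≤ N := by
    have key : ∀ x ∈ S, ∀ v ∈ V, x * v * x⁻¹ ∈ V := by
      intro x hx v hv
      rw [hVD] at hv ⊢
      refine ⟨mem_centralizer_iff.mpr fun d hd => ?_, hv.2.conj x⟩
      have hd' : x⁻¹ * d * x ∈ D := by
        have := hDn.conj_mem ⟨d, hDS hd⟩ hd (⟨x, hx⟩ : S)⁻¹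
        simpa [mem_subgroupOf, mul_assoc] using this
      calc d * (x * v * x⁻¹) = x * (x⁻¹ * d * x * v) * x⁻¹ := by group
        _ = x * (v * (x⁻¹ * d * x)) * x⁻¹ := by rw [mem_centralizer_iff.mp hv.1 _ hd']
        _ = x * v * x⁻¹ * d := by group
    intro x hx
    refine mem_normalizer_iff.mpr fun v => ⟨key x hx v, fun hv => ?_⟩
    have := key x⁻¹ (inv_mem hx) _ hv
    simpa [mul_assoc] using this
  have h1 := card_le_of_isPGroup hS.isPGroup hSN
  rw [hS.card, card_top, ← card_mul_index N, Nat.factorization_mul Nat.card_pos.ne'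
    index_ne_zero_of_finite, Finsupp.add_apply] at h1
  have h2 := (Nat.pow_le_pow_iff_right hsp.one_lt).mp h1
  have h3 := hsp.factorization_pos_of_dvd index_ne_zero_of_finite hsN
  omega

/-- All `q`-elements lie in every Sylow `q`-subgroup. -/
theorem mem_of_pel {Q : Subgroup G} (hQ : SylowIn q ⊤ Q) {u : G} (hu : PEl q u) : u ∈ Q := by
  by_cases huc : u ∈ center G
  · exact hQ.center_mem hu (mem_top u) huc
  obtain ⟨r, hr, hrm⟩ := exists_prime_dvd_m hs hqn
  have := Fact.mk hr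
  obtain ⟨b, hb, hbr, hbc⟩ := hs.exists_r (p := r) hrm huc
  set V := qPart hs hqn hII hr (r_ne hs hqn hr hrm) b hbc hbr with hV
  have huV : u ∈ V := ⟨C_comm hb, hu⟩
  obtain ⟨Q₀, hQ₀, hVQ⟩ := exists_sylowIn_ge (H := ⊤)
    (isPGroup_qPart hs hqn hII hr (r_ne hs hqn hr hrm) hbc hbr) le_top
  obtain ⟨c, -, hc⟩ := hQ.exists_conj hQ₀.isPGroup le_top
  obtain ⟨j, hj⟩ := index_normalizer_qPart hs hqn hII hr hrm hbc hbr
  obtain ⟨s, hsQ, e, he, hse⟩ := exists_mul_of_index (H := normalizer (V : Set G)) (K := ⊤) le_top hQ₀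
    ⟨j, by rw [relIndex_top_right]; exact hj⟩ (mem_top c⁻¹)
  have h1 : c⁻¹ * u * c ∈ Q₀ := by
    have he' : e * u * e⁻¹ ∈ V := (mem_normalizer_iff.mp he u).mp huV
    have := mul_mem (mul_mem hsQ (hVQ he')) (inv_mem hsQ)
    rw [show s * (e * u * e⁻¹) * s⁻¹ = (s * e) * u * (s * e)⁻¹ by group, ← hse] at this
    simpa [mul_assoc] using this
  have := hc _ h1
  simpa [mul_assoc] using this

/-- The Sylow `q`-subgroup is abelian. -/
theorem comm_sylow {Q : Subgroup G} (hQ : SylowIn q ⊤ Q) {x y : G} (hx : x ∈ Q) (hy : y ∈ Q) :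
    x * y = y * x := by
  obtain ⟨u, hum, huq⟩ := exists_S_pel hs hqn hII
  have huQ : u ∈ Q := mem_of_pel hs hqn hII hQ huq
  have hQS : ∀ h, cl h = m → Q ≤ C h := by
    intro h hh
    obtain ⟨D, hD⟩ := exists_sylowIn (p := q) (C h)
    have := (hs.full_of_S hqn hh hD).ge_eq hQ fun d hd =>
      mem_of_pel hs hqn hII hQ (PEl.of_mem hD.isPGroup hd)
    exact this ▸ hD.le
  obtain ⟨r, hr, hrm⟩ := exists_prime_dvd_m hs hqn
  have := Fact.mk hr
  have hrq := r_ne hs hqn hr hrm
  obtain ⟨b, hbu, hbr, hbc⟩ := hs.exists_r (p := r) hrm (hs.notCenter_S hum)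
  have hbL := L_of_pel hs hqn hII hr hrq hbc hbr
  have hCbu : C b ≤ C u := hs.L_coprime hr hq.out hrq hbL hbr huq (C_comm hbu)
  have hrel : (C b).relIndex (C u) = n := by
    have h1 : (C b).relIndex (C u) * cl u = cl b := relIndex_mul_index hCbu
    rw [hum, hbL, mul_comm m n] at h1
    exact Nat.eq_of_mul_eq_mul_right (by have := hs.one_lt_m; omega) h1
  have hQu : SylowIn q (C u) Q := by
    obtain ⟨D, hD⟩ := exists_sylowIn (p := q) (C u)
    rwa [← (hs.full_of_S hqn hum hD).ge_eq hQ fun d hd =>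
      mem_of_pel hs hqn hII hQ (PEl.of_mem hD.isPGroup hd)]
  obtain ⟨T, hT⟩ := exists_sylowIn (p := r) (C b)
  have hbT : b ∈ T := hT.mem_of_normalizes hbr (self_mem_C b) (centralizer_le_normalizer _
    (mem_centralizer_iff.mpr fun d hd => mem_C.mp (hT.le hd)))
  have hfb : ∀ z, z ∉ center G →
      (Nat.card (C z)).factorization r = (Nat.card (C b)).factorization r := by
    intro z hz
    have h1 := fact_C (p := r) z
    have h2 := fact_C (p := r) b
    rw [hs.fact_cl (hs.not_dvd_n hr hrm) hz] at h1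
    rw [hs.fact_cl (hs.not_dvd_n hr hrm) hbc] at h2
    omega
  have hTu : SylowIn r (C u) T :=
    ⟨hT.le.trans hCbu, hT.isPGroup, hT.card.trans (by rw [hfb u (hs.notCenter_S hum)])⟩
  by_contra hxy
  set A : Subgroup Q := (C b).subgroupOf Q ⊔ center Q with hA
  have hAne : A ≠ ⊤ := by
    intro htop
    have hxA : (⟨x, hx⟩ : Q) ∈ A := htop ▸ mem_top _
    rw [hA, mem_sup_of_normal_right] at hxA
    obtain ⟨a, ha, z, hz, haz⟩ := hxA
    have hanz : ¬ a ∈ center Q := fun h => hxy (by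
      have h1 := mem_center_iff.mp (mul_mem h hz) ⟨y, hy⟩
      rw [haz] at h1
      exact (congrArg Subtype.val h1).symm)
    have hac : (a : G) ∉ center G := fun h => hanz (mem_center_iff.mpr fun g =>
      Subtype.ext (mem_center_iff.mp h g))
    have haL : cl (a : G) = m * n := (hs.cases hac).resolve_left fun h =>
      hanz (mem_center_iff.mpr fun g => Subtype.ext (mem_C.mp (hQS _ h g.2)))
    have hCa : C b = C (a : G) :=
      hs.L_le haL (hs.L_coprime hr hq.out hrq hbL hbr (PEl.of_mem hQ.isPGroup a.2) ha)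
    have hQb : Q ≤ C b := by
      intro w hw
      have hwA : (⟨w, hw⟩ : Q) ∈ A := htop ▸ mem_top _
      rw [hA, mem_sup_of_normal_right] at hwA
      obtain ⟨a', ha', z', hz', haz'⟩ := hwA
      have hz'b : (z' : G) ∈ C b := by
        rw [hCa]
        exact mem_C.mpr (congrArg Subtype.val (mem_center_iff.mp hz' a)).symm
      rw [show w = (a' : G) * z' from (congrArg Subtype.val haz').symm]
      exact mul_mem ha' hz'b
    have h1 := card_le_of_isPGroup hQ.isPGroup hQb
    rw [hQ.card, card_top] at h1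
    have h2 := (Nat.pow_le_pow_iff_right hq.out.one_lt).mp h1
    have h3 := fact_C (p := q) b
    have h4 := hq.out.factorization_pos_of_dvd (show cl b ≠ 0 from index_ne_zero_of_finite)
      (hbL ▸ hqn.mul_left m)
    omega
  obtain ⟨h, hh⟩ := CfsgLib.ClassGraph.exists_forall_conj_notMem hAne
  have hhz : h ∉ center Q := fun hz => hh 1 (by rw [one_mul, inv_one, mul_one]; exact mem_sup_right hz)
  have hhc : (h : G) ∉ center G := fun hc => hhz (mem_center_iff.mpr fun g =>
    Subtype.ext (mem_center_iff.mp hc g))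
  have hhL : cl (h : G) = m * n := (hs.cases hhc).resolve_left fun e =>
    hhz (mem_center_iff.mpr fun g => Subtype.ext (mem_C.mp (hQS _ e g.2)))
  have huh : u ∈ C (h : G) := C_comm (hQS u hum h.2)
  obtain ⟨T', hT'⟩ := exists_sylowIn (p := r) (C (h : G))
  have hT'u : T' ≤ C u := fun a ha => C_comm
    (hs.L_coprime hq.out hr hrq.symm hhL (PEl.of_mem hQ.isPGroup h.2) (PEl.of_mem hT'.isPGroup ha)
      (hT'.le ha) huh)
  obtain ⟨c, hcu, hc⟩ := hTu.exists_conj hT'.isPGroup hT'u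
  have hmap : T'.map (MulAut.conj c).toMonoidHom = T :=
    eq_of_le_of_card_ge (by rintro _ ⟨a, ha, rfl⟩; exact hc a ha) (le_of_eq (by
      rw [card_map_of_injective (MulAut.conj c).injective, hT'.card, hT.card, hfb (h : G) hhc]))
  obtain ⟨a, ha, hab⟩ : b ∈ T'.map (MulAut.conj c).toMonoidHom := hmap ▸ hbT
  have hchb : c * (h : G) * c⁻¹ ∈ C b := by
    rw [← hab]
    exact conj_mem_conj (C_comm (hT'.le ha))
  obtain ⟨s, hsQ, e, he, hse⟩ := exists_mul_of_index hCbu hQu
    ⟨_, hrel.trans (n_eq_pow hs hqn hII)⟩ (inv_mem hcu)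
  refine hh (⟨s, hsQ⟩ : Q)⁻¹ (mem_sup_left ?_)
  rw [mem_subgroupOf, inv_inv]
  show s⁻¹ * (h : G) * s ∈ C b
  rw [show s⁻¹ * (h : G) * s = e * (c * h * c⁻¹) * e⁻¹ by
    rw [show c = e⁻¹ * s⁻¹ by rw [← mul_inv_rev, ← hse, inv_inv]]; group]
  exact mul_mem (mul_mem he hchb) (inv_mem he)

/-- Centralizers of noncentral `q`-elements are normal, of index `m`. -/
theorem C_normal {u : G} (hu : PEl q u) (huc : u ∉ center G) : (C u).Normal ∧ cl u = m := by
  obtain ⟨Q, hQ⟩ := exists_sylowIn (p := q) (⊤ : Subgroup G)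
  have hnq : ∀ H : Subgroup G, Q ≤ H → ¬ q ∣ H.index := by
    intro H hH hd
    have h1 := card_le_of_isPGroup hQ.isPGroup hH
    rw [hQ.card, card_top, ← card_mul_index H, Nat.factorization_mul Nat.card_pos.ne'
      index_ne_zero_of_finite, Finsupp.add_apply] at h1
    have h2 := (Nat.pow_le_pow_iff_right hq.out.one_lt).mp h1
    have h3 := hq.out.factorization_pos_of_dvd index_ne_zero_of_finite hd
    omega
  have huQ := mem_of_pel hs hqn hII hQ hu
  have hum : cl u = m := (hs.cases huc).resolve_right fun h =>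
    hnq (C u) (fun w hw => mem_C.mpr (comm_sylow hs hqn hII hQ hw huQ))
      (show q ∣ cl u from h ▸ hqn.mul_left m)
  refine ⟨?_, hum⟩
  obtain ⟨r, hr, hrm⟩ := exists_prime_dvd_m hs hqn
  have := Fact.mk hr
  obtain ⟨b, hb, hbr, hbc⟩ := hs.exists_r (p := r) hrm huc
  set V := qPart hs hqn hII hr (r_ne hs hqn hr hrm) b hbc hbr
  have hVQ : ∀ v ∈ V, v ∈ Q := fun v hv => mem_of_pel hs hqn hII hQ hv.2
  have hQC : Q ≤ centralizer (V : Set G) := fun w hw =>
    mem_centralizer_iff.mpr fun v hv => comm_sylow hs hqn hII hQ (hVQ v hv) hw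
  obtain ⟨j, hj⟩ := index_normalizer_qPart hs hqn hII hr hrm hbc hbr
  haveI hVn : V.Normal := by
    refine normalizer_eq_top_iff.mp (index_eq_one.mp ?_)
    rcases Nat.eq_zero_or_pos j with rfl | hj0
    · exact hj
    · exact absurd (hj ▸ dvd_pow_self q hj0.ne') (hnq _ (hQC.trans (centralizer_le_normalizer _)))
  have hVu : centralizer (V : Set G) ≤ C u := fun w hw =>
    mem_C.mpr (mem_centralizer_iff.mp hw u ⟨C_comm hb, hu⟩).symm
  have hdvd : (centralizer (V : Set G)).index ∣ n * m := by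
    rw [mul_comm, ← L_of_pel hs hqn hII hr (r_ne hs hqn hr hrm) hbc hbr]
    exact index_dvd_of_le (C_le_centralizer_qPart hs hqn hII hr (r_ne hs hqn hr hrm) hbc hbr)
  have hcop : Nat.Coprime (centralizer (V : Set G)).index n := by
    rw [n_eq_pow hs hqn hII]
    exact ((hq.out.coprime_iff_not_dvd.mpr (hnq _ hQC)).symm).pow_right _
  have hidx : (centralizer (V : Set G)).index = m :=
    Nat.dvd_antisymm (hcop.dvd_of_dvd_mul_left hdvd) (hum ▸ index_dvd_of_le hVu)
  have hEq : centralizer (V : Set G) = C u := by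
    refine eq_of_le_of_card_ge hVu (le_of_eq ?_)
    have h1 := card_mul_index (centralizer (V : Set G))
    rw [hidx, ← card_C_mul_cl u, hum] at h1
    exact (Nat.eq_of_mul_eq_mul_right (by have := hs.one_lt_m; omega) h1).symm
  rw [← hEq]
  infer_instance

/-- Case II does not occur. -/
theorem II_false : False := by
  obtain ⟨Q, hQ⟩ := exists_sylowIn (p := q) (⊤ : Subgroup G)
  obtain ⟨v, hv, hvc⟩ := hs.exists_pel_noncentral (p := q) (hqn.mul_left m)
  obtain ⟨hvn, hvm⟩ := C_normal hs hqn hII hv hvc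
  obtain ⟨r, hr, hrm⟩ := exists_prime_dvd_m hs hqn
  have := Fact.mk hr
  have hrq := r_ne hs hqn hr hrm
  obtain ⟨g, hgr, hgv⟩ := exists_pel_of_dvd_cl (p := r) (w := v) (hvm ▸ hrm)
  have hgc : g ∉ center G := fun h => hgv (center_le_C v h)
  obtain ⟨w, hwg, hwq, hwc⟩ := hII g hgc
  have hcomm : ∀ {a b : G}, PEl q a → PEl q b → Commute a b := fun ha hb =>
    comm_sylow hs hqn hII hQ (mem_of_pel hs hqn hII hQ ha) (mem_of_pel hs hqn hII hQ hb)
  set v' := v⁻¹ * (g * v * g⁻¹) with hv'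
  have hv'q : PEl q v' := hv.inv.mul (hv.conj g) (hcomm hv.inv (hv.conj g))
  have hconjmem : ∀ (x : G), (C x).Normal → ∀ k ∈ C x, k ∈ C (g * x * g⁻¹) := by
    intro x hx k hk
    rw [mem_C_conj]
    simpa using hx.conj_mem k hk g⁻¹
  have hv'c : v' ∉ center G := fun h => hgv (commute_of_central_shift hr hq.out hrq hgr hv h
    (by rw [hv', mul_inv_cancel_left]))
  have hCv : C v = C v' := by
    refine hs.S_le hvm hv'c fun k hk => mem_C.mpr ?_
    exact ((show Commute k v from mem_C.mp hk).inv_right.mul_right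
      (show Commute k (g * v * g⁻¹) from mem_C.mp (hconjmem v hvn k hk))).eq
  have huq : PEl q (v * w) := hv.mul hwq (hcomm hv hwq)
  have huc : v * w ∉ center G := fun h => hgv (by
    have h1 : C v⁻¹ = C w := by
      rw [show w = v⁻¹ * (v * w) by group, C_mul_eq_of_central h]
    have h2 : g ∈ C v⁻¹ := h1 ▸ C_comm (C_comm (C_comm hwg))
    exact mem_C.mpr (Commute.inv_right_iff.mp (show Commute g v⁻¹ from mem_C.mp h2)).eq)
  obtain ⟨hun, hum⟩ := C_normal hs hqn hII huq huc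
  have hgw : g * w * g⁻¹ = w := mul_inv_eq_iff_eq_mul.mpr (mem_C.mp (C_comm hwg))
  have hle : C (v * w) ≤ C v' := by
    intro k hk
    have h2 := hconjmem (v * w) hun k hk
    rw [show g * (v * w) * g⁻¹ = g * v * g⁻¹ * (g * w * g⁻¹) by group, hgw] at h2
    have e : v' = (v * w)⁻¹ * (g * v * g⁻¹ * w) := by
      rw [hv', mul_inv_rev, ← (hcomm hwq (hv.conj g)).eq]
      have := (hcomm hwq.inv hv.inv).eq
      calc v⁻¹ * (g * v * g⁻¹) = (v⁻¹ * w⁻¹) * (w * (g * v * g⁻¹)) := by group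
        _ = (w⁻¹ * v⁻¹) * (w * (g * v * g⁻¹)) := by rw [this]
    rw [e]
    exact mem_C.mpr ((show Commute k (v * w) from mem_C.mp hk).inv_right.mul_right
      (show Commute k (g * v * g⁻¹ * w) from mem_C.mp h2)).eq
  have hCu : C (v * w) = C v := (hs.S_le hum hv'c hle).trans hCv.symm
  have hle2 : C v ≤ C w := fun k hk => by
    have h1 : Commute k (v * w) := mem_C.mp (hCu.ge hk)
    have h2 := (show Commute k v from mem_C.mp hk).inv_right.mul_right h1
    rw [inv_mul_cancel_left] at h2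
    exact mem_C.mpr h2.eq
  exact hgv ((hs.S_le hvm hwc hle2).ge (C_comm hwg))

end

end CfsgLib.ClassSizes3
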