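import Cfsg.Agent.Lib.ClassSizes3.CaseOne
import Cfsg.Agent.Lib.PSolvable.FrattiniFacts

/-!
Class sizes `{1, m, m * n}` with `m, n` coprime: the structure of the group.
-/

set_option autoImplicit false

namespace CfsgLib.ClassSizes3

open Subgroup
open scoped commutatorElement

variable {G : Type*} [Group G] [Finite G] {m n q : ℕ} {u : G}

omit [Finite G] in
/-- A subgroup normalised by a Sylow `p`-subgroup `R`, of `p`-power order, lies in `R`. -/
theorem SylowIn.le_of_normal [Finite G] {p : ℕ} [Fact p.Prime] {R D : Subgroup G} (hR : SylowIn p ⊤ R)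
    (hD : IsPGroup p D) [hn : D.Normal] : D ≤ R := by
  have hP : IsPGroup p (R ⊔ D : Subgroup G) := hR.isPGroup.to_sup_of_normal_right hD
  have hle := card_le_of_isPGroup hP (le_top : R ⊔ D ≤ ⊤)
  rw [← hR.card] at hle
  rw [eq_of_le_of_card_ge le_sup_left hle]
  exact le_sup_right

section
variable (hd : Datum G m n q u)
include hd

theorem Datum.cl_conj_eq {x : G} (hx : cl x = m) : C x = C u := by
  obtain ⟨c, hc⟩ := hd.exists_conj_of_S hx
  rw [hc]
  ext k
  rw [mem_C_conj]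
  refine ⟨fun h => ?_, fun h => ?_⟩
  · simpa [mul_assoc] using hd.normal.conj_mem _ h c
  · simpa using hd.normal.conj_mem k h c⁻¹

theorem Datum.cl_of_notMem {y : G} (hy : y ∉ C u) : cl y = m * n :=
  (hd.sizes.cases fun h => hy (center_le_C u h)).resolve_left fun h =>
    hy ((hd.cl_conj_eq h).le (self_mem_C y))

theorem Datum.center_of_notMem {y a : G} (hy : y ∉ C u) (ha : a ∈ C u) (hay : a ∈ C y) :
    a ∈ center G := hd.center_of_L (hd.cl_of_notMem hy) ha hay

theorem Datum.normalizer_eq : normalizer (C u : Set G) = ⊤ := by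
  have := hd.normal
  exact normalizer_eq_top (C u)

theorem Datum.part_normal (p : ℕ) : (hd.part p).Normal :=
  ⟨fun _ hv g => hd.conj_mem_part (hd.normalizer_eq ▸ mem_top g) hv⟩

theorem Datum.exists_pel_outside {r : ℕ} [Fact r.Prime] (hrm : r ∣ m) : ∃ y, PEl r y ∧ y ∉ C u :=
  exists_pel_of_dvd_cl (by rw [hd.cl_u]; exact hrm)

/-- A noncentral element of `C u` central modulo `Z(G)` in a Sylow subgroup. -/
theorem Datum.exists_central_mod {r : ℕ} [hr : Fact r.Prime] (hrm : r ∣ m) {R : Subgroup G}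
    (hR : SylowIn r ⊤ R) : ∃ d, d ∈ C u ∧ d ∈ R ∧ PEl r d ∧ d ∉ center G ∧
      (∀ g ∈ R, g * d * g⁻¹ * d⁻¹ ∈ center G) ∧ d ^ r ∈ center G := by
  have := hd.part_normal r
  obtain ⟨b, hbC, hbr, hbc⟩ := hd.sizes.exists_r (p := r) hrm hd.noncentral
  have hDR : hd.part r ≤ R := hR.le_of_normal (hd.isPGroup_part r)
  set Z : Subgroup R := (center G).subgroupOf R
  have hQ : IsPGroup r (R ⧸ Z) := hR.isPGroup.to_quotient Z
  have : Group.IsNilpotent (R ⧸ Z) := hQ.isNilpotent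
  set π := QuotientGroup.mk' Z
  set N := ((hd.part r).subgroupOf R).map π
  haveI : ((hd.part r).subgroupOf R).Normal := inferInstance
  haveI : N.Normal := Subgroup.Normal.map inferInstance π (QuotientGroup.mk'_surjective Z)
  have hne : N ≠ ⊥ := fun h => hbc <| by
    have h1 : π ⟨b, hDR ⟨hbC, hbr⟩⟩ ∈ N := mem_map_of_mem π (show b ∈ hd.part r from ⟨hbC, hbr⟩)
    rw [h, mem_bot] at h1
    exact (QuotientGroup.eq_one_iff (⟨b, hDR ⟨hbC, hbr⟩⟩ : R)).mp h1
  have hne' := CfsgLib.PSolvable.inf_center_ne_bot hne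
  have : Nontrivial (N ⊓ center (R ⧸ Z) : Subgroup (R ⧸ Z)) := (nontrivial_iff_ne_bot _).mpr hne'
  obtain ⟨k, hk, hkc⟩ := (hQ.to_subgroup (N ⊓ center (R ⧸ Z))).nontrivial_iff_card.mp inferInstance
  obtain ⟨⟨z, hz⟩, hzo⟩ := exists_prime_orderOf_dvd_card'
    (G := (N ⊓ center (R ⧸ Z) : Subgroup (R ⧸ Z))) r (hkc ▸ dvd_pow_self r hk.ne')
  rw [Subgroup.orderOf_mk] at hzo
  obtain ⟨⟨⟨d, hdR⟩, hdD, hdz⟩, hzc⟩ := hz
  subst hdz
  refine ⟨d, hdD.1, hdR, hdD.2, fun h => ?_, fun g hg => ?_, ?_⟩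
  · rw [show π ⟨d, hdR⟩ = 1 from (QuotientGroup.eq_one_iff _).mpr h, orderOf_one] at hzo
    exact hr.out.one_lt.ne hzo
  · have h1 := mem_center_iff.mp hzc (π ⟨g, hg⟩)
    have h2 : π (⟨g, hg⟩ * ⟨d, hdR⟩ * ⟨g, hg⟩⁻¹ * ⟨d, hdR⟩⁻¹) = 1 := by
      rw [map_mul, map_mul, map_mul, map_inv, map_inv, h1, mul_inv_cancel_right, mul_inv_cancel]
    exact (QuotientGroup.eq_one_iff ((⟨g, hg⟩ : R) * (⟨d, hdR⟩ : R) * (⟨g, hg⟩ : R)⁻¹ * (⟨d, hdR⟩ : R)⁻¹)).mp h2
  · have h3 : π (⟨d, hdR⟩ ^ r) = 1 := by rw [map_pow, ← hzo, pow_orderOf_eq_one]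
    exact (QuotientGroup.eq_one_iff ((⟨d, hdR⟩ : R) ^ r)).mp h3

theorem Datum.fact_m {r : ℕ} [hr : Fact r.Prime] (hrm : r ∣ m) : m.factorization r = 1 := by
  obtain ⟨R, hR⟩ := exists_sylowIn (p := r) (⊤ : Subgroup G)
  obtain ⟨d, hdA, hdR, hdr, hdc, hshift, hdp⟩ := hd.exists_central_mod hrm hR
  have hCd := hd.C_eq hdA hdc
  haveI := hd.isMulCommutative_part q
  have hdvd := relIndex_dvd_of_semiregular (p := r) (P := R) (P₀ := R ⊓ C u) (V := hd.part q) inf_le_left
    (le_trans (hd.normalizer_eq ▸ le_top) (hd.le_normalizer_part q)) (hd.not_dvd_part hr.out hrm)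
    hd.part_not_le_center
    (fun x hxP hx0 v hv hxv => by
      by_contra hvc
      exact hx0 ⟨hxP, (hd.C_eq hv.1 hvc).le hxv⟩)
    (fun x hx v hv => mem_C.mpr (hd.comm hx.2 hv.1))
    (fun g hg => ⟨pow_mem hg r, hCd ▸ second_exp (hshift g hg) hdp⟩)
    (fun a ha b hb => mem_inf.mpr ⟨mul_mem (mul_mem (mul_mem ha hb) (inv_mem ha)) (inv_mem hb),
      hCd ▸ second_comm (hshift a ha) (hshift b hb)⟩)
  have hS := sylowIn_inf (H := C u) hR (hd.normalizer_eq ▸ le_top)
  have h1 := relIndex_mul_relIndex ⊥ (R ⊓ C u) R bot_le inf_le_left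
  rw [relIndex_bot_left, relIndex_bot_left, hS.card, hR.card, card_top,
    ← fact_C (p := r) u, hd.cl_u, pow_add] at h1
  rw [Nat.eq_of_mul_eq_mul_left (pow_pos hr.out.pos _) h1] at hdvd
  have h2 := (Nat.pow_dvd_pow_iff_le_right hr.out.one_lt).mp
    (show r ^ m.factorization r ∣ r ^ 1 by rwa [pow_one])
  have h3 := hr.out.factorization_pos_of_dvd (show m ≠ 0 by have := hd.sizes.one_lt_m; omega) hrm
  omega

theorem Datum.prime_m : m.Prime := by
  have hm1 := hd.sizes.one_lt_m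
  obtain ⟨r, hr, hrm⟩ := Nat.exists_prime_and_dvd (show m ≠ 1 by omega)
  have := Fact.mk hr
  suffices huniq : ∀ {s : ℕ}, s.Prime → s ∣ m → s = r by
    have h := Nat.eq_prime_pow_of_unique_prime_dvd (show m ≠ 0 by omega) huniq
    have h1 := hd.fact_m (r := r) hrm
    rw [h, hr.factorization_pow, Finsupp.single_eq_same] at h1
    rw [h, h1, pow_one]
    exact hr
  intro s hs hsm
  by_contra hne
  have := Fact.mk hs
  obtain ⟨y, hy, hyA⟩ := hd.exists_pel_outside (r := r) hrm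
  have hyc : y ∉ center G := fun h => hyA (center_le_C u h)
  obtain ⟨v, hv, hvs, hvc⟩ := hd.sizes.exists_r (p := s) hsm hyc
  have hvA : v ∉ C u := fun h => hvc (hd.center_of_notMem hyA h hv)
  obtain ⟨R, hR, hyR⟩ := exists_sylowIn_ge (p := r) (H := (⊤ : Subgroup G)) hy.isPGroup le_top
  obtain ⟨d, hdA, hdR, hdr, hdc, hshift, -⟩ := hd.exists_central_mod hrm hR
  set z := y * d * y⁻¹ * d⁻¹ with hzdef
  have hz : z ∈ center G := hshift y (hyR (mem_zpowers y))
  have hyd : y * d * y⁻¹ = z * d := by rw [hzdef, inv_mul_cancel_right]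
  have hd'A : v * d * v⁻¹ ∈ C u := hd.normal.conj_mem d hdA v
  have hyv : y * v = v * y := (mem_C.mp hv).symm
  have hyd' : y * (v * d * v⁻¹) * y⁻¹ = z * (v * d * v⁻¹) := by
    calc y * (v * d * v⁻¹) * y⁻¹ = (y * v) * d * (y * v)⁻¹ := by group
      _ = (v * y) * d * (v * y)⁻¹ := by rw [hyv]
      _ = v * (y * d * y⁻¹) * v⁻¹ := by group
      _ = v * z * d * v⁻¹ := by rw [hyd, ← mul_assoc v z d]
      _ = z * (v * d * v⁻¹) := by rw [mem_center_iff.mp hz v]; group
  have he : d⁻¹ * (v * d * v⁻¹) ∈ center G := by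
    refine hd.center_of_notMem hyA (mul_mem (inv_mem hdA) hd'A) (C_comm (mem_C.mpr ?_))
    refine mul_inv_eq_iff_eq_mul.mp ?_
    calc y * (d⁻¹ * (v * d * v⁻¹)) * y⁻¹ = (y * d * y⁻¹)⁻¹ * (y * (v * d * v⁻¹) * y⁻¹) := by group
      _ = (z * d)⁻¹ * (z * (v * d * v⁻¹)) := by rw [hyd, hyd']
      _ = d⁻¹ * (v * d * v⁻¹) := by group
  exact hvA ((hd.C_eq hdA hdc).le
    (commute_of_central_shift hs hr hne hvs hdr he (mul_inv_cancel_left d _).symm))

theorem Datum.index_eq : (C u).index = m := hd.cl_u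

theorem Datum.dvd_sub_one : m ∣ n - 1 := by
  have hr := hd.prime_m
  have := Fact.mk hr
  have := hd.normal
  obtain ⟨y, hy, hyA⟩ := hd.exists_pel_outside (r := m) dvd_rfl
  obtain ⟨t, htn, hAt, -⟩ := hd.exists_t
  set Z' := (center G).subgroupOf (C u)
  set W := C u ⧸ Z'
  have hWcomm : ∀ a b : W, a * b = b * a := by
    intro a b
    obtain ⟨a, rfl⟩ := QuotientGroup.mk_surjective a
    obtain ⟨b, rfl⟩ := QuotientGroup.mk_surjective b
    rw [← QuotientGroup.mk_mul, ← QuotientGroup.mk_mul]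
    exact congrArg QuotientGroup.mk (Subtype.ext (hd.comm a.2 b.2))
  have hT := card_torsion hWcomm (show 0 < n by have := hd.sizes.one_lt_n; omega) htn
    ((index_eq_card _).symm.trans hAt)
  have he : Z'.map ((MulAut.conjNormal y : MulAut (C u)) : C u →* C u) = Z' := by
    have key : ∀ (g : G) (a : C u), a ∈ Z' → MulAut.conjNormal g a = a := fun g a ha =>
      Subtype.ext (by
        rw [MulAut.conjNormal_apply, mem_center_iff.mp (show (a : G) ∈ center G from ha) g,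
          mul_inv_cancel_right])
    ext a
    refine ⟨?_, fun ha => ⟨a, ha, key y a ha⟩⟩
    rintro ⟨b, hb, rfl⟩
    show MulAut.conjNormal y b ∈ Z'
    rwa [key y b hb]
  let φ : W ≃* W := QuotientGroup.congr Z' Z' (MulAut.conjNormal y) he
  let σ : Equiv.Perm {x : W // x ^ n = 1} := Equiv.Perm.subtypePerm φ.toEquiv fun x => by
    show φ x ^ n = 1 ↔ _
    rw [← map_pow, map_eq_one_iff φ φ.injective]
  have hiter : ∀ (i : ℕ) (a : C u) (ha : (a : W) ^ n = 1),
      ((σ ^ i) ⟨(a : W), ha⟩).1 = ((MulAut.conjNormal (y ^ i) a : C u) : W) := by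
    intro i a ha
    induction i with
    | zero => simp
    | succ i ih =>
      rw [pow_succ', Equiv.Perm.mul_apply]
      show φ ((σ ^ i) ⟨(a : W), ha⟩).1 = _
      rw [ih, pow_succ', map_mul, MulAut.mul_apply]
      rfl
  have hpow : σ ^ m ^ 1 = 1 := by
    ext ⟨x, hx⟩
    obtain ⟨a, rfl⟩ := QuotientGroup.mk_surjective x
    rw [pow_one, hiter m a hx, Equiv.Perm.one_apply]
    have hym : y ^ m ∈ C u := hd.index_eq ▸ (C u).pow_index_mem y
    refine congrArg QuotientGroup.mk (Subtype.ext ?_)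
    rw [MulAut.conjNormal_apply, hd.comm hym a.2, mul_inv_cancel_right]
  classical
  haveI := Fintype.ofFinite W
  have h := Equiv.Perm.card_compl_support_modEq (p := m) (n := 1) hpow
  have hfix : σ.supportᶜ.card = 1 := by
    rw [Finset.card_eq_one]
    refine ⟨⟨1, one_pow n⟩, Finset.eq_singleton_iff_unique_mem.mpr ⟨?_, ?_⟩⟩
    · rw [Finset.mem_compl, Equiv.Perm.notMem_support]
      exact Subtype.ext (map_one φ)
    · rintro ⟨x, hx⟩ hmem
      rw [Finset.mem_compl, Equiv.Perm.notMem_support] at hmem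
      obtain ⟨a, rfl⟩ := QuotientGroup.mk_surjective x
      refine Subtype.ext ?_
      have h1 : ((MulAut.conjNormal y a : C u) : W) = (a : W) := congrArg Subtype.val hmem
      have h2 : (a : G) ^ n ∈ center G :=
        (QuotientGroup.eq_one_iff (a ^ n)).mp ((QuotientGroup.mk_pow _ _ _).trans hx)
      refine (QuotientGroup.eq_one_iff a).mpr ?_
      refine (hd.free (hd.normalizer_eq ▸ mem_top y) a.2 h2 ?_).resolve_left hyA
      have h3 : ((MulAut.conjNormal y a * a⁻¹ : C u) : W) = 1 := by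
        rw [QuotientGroup.mk_mul, QuotientGroup.mk_inv, h1, mul_inv_cancel]
      exact (QuotientGroup.eq_one_iff (MulAut.conjNormal y a * a⁻¹ : C u)).mp h3
  rw [hfix, ← Nat.card_eq_fintype_card, hT] at h
  exact (Nat.modEq_iff_dvd' (by have := hd.sizes.one_lt_n; omega)).mp h

theorem Datum.setOf_eq : (C u : Set G) = {x | cl x = 1 ∨ cl x = m} := by
  ext x
  refine ⟨fun hx => ?_, fun hx => ?_⟩
  · by_cases hc : x ∈ center G
    · exact Or.inl (cl_eq_one.mpr hc)
    · exact Or.inr (by rw [cl, hd.C_eq hx hc]; exact hd.cl_u)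
  · rcases hx with h | h
    · exact center_le_C u (cl_eq_one.mp h)
    · exact (hd.cl_conj_eq h).le (self_mem_C x)

theorem Datum.exists_complement : ∃ N : Subgroup G, N.Normal ∧ (Nat.card N).Coprime m ∧
    ∃ a : ℕ, N.index = m ^ a := by
  have hr := hd.prime_m
  have := Fact.mk hr
  set M := Nat.card (C u) / m ^ (Nat.card (C u)).factorization m with hM
  have hM0 : ¬ m ∣ M := Nat.not_dvd_ordCompl hr Nat.card_pos.ne'
  let N : Subgroup G :=
    { carrier := {a | a ∈ C u ∧ a ^ M = 1}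
      one_mem' := ⟨one_mem _, one_pow M⟩
      inv_mem' := fun {a} ha => ⟨inv_mem ha.1, by rw [inv_pow, ha.2, inv_one]⟩
      mul_mem' := fun {a b} ha hb => ⟨mul_mem ha.1 hb.1, by
        rw [(show Commute a b from hd.comm ha.1 hb.1).mul_pow, ha.2, hb.2, one_mul]⟩ }
  refine ⟨N, ⟨fun a ha g => ⟨hd.normal.conj_mem a ha.1 g, by
    rw [conj_pow, ha.2, mul_one, mul_inv_cancel]⟩⟩, ?_, _, Nat.eq_prime_pow_of_unique_prime_dvd
    index_ne_zero_of_finite ?_⟩
  · refine ((hr.coprime_iff_not_dvd).mpr fun h => hM0 ?_).symm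
    obtain ⟨x, hx⟩ := exists_prime_orderOf_dvd_card' m h
    rw [← hx, ← Subgroup.orderOf_coe]
    exact orderOf_dvd_of_pow_eq_one x.2.2
  · intro s hs hsd
    by_contra hsm
    have := Fact.mk hs
    obtain ⟨S, hS⟩ := exists_sylowIn (p := s) (⊤ : Subgroup G)
    have hSN : S ≤ N := fun x hx => by
      have hxs := PEl.of_mem hS.isPGroup hx
      have hxA : x ∈ C u := hd.pel_mem hs (hd.normalizer_eq ▸ mem_top x) hxs
        fun h => hsm ((Nat.prime_dvd_prime_iff_eq hs hr).mp h)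
      refine ⟨hxA, orderOf_dvd_iff_pow_eq_one.mp ?_⟩
      obtain ⟨k, hk⟩ := hxs
      refine Nat.Coprime.dvd_of_dvd_mul_left
        ((((Nat.coprime_primes hs hr).mpr hsm).pow k ((Nat.card (C u)).factorization m)).coprime_dvd_left
          (orderOf_dvd_of_pow_eq_one hk)) ?_
      rw [hM, Nat.ordProj_mul_ordCompl_eq_self, ← Subgroup.orderOf_mk x hxA]
      exact _root_.orderOf_dvd_natCard _
    have h1 := card_le_of_isPGroup hS.isPGroup hSN
    rw [hS.card, card_top, ← card_mul_index N, Nat.factorization_mul Nat.card_pos.ne'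
      index_ne_zero_of_finite, Finsupp.add_apply] at h1
    have h2 := (Nat.pow_le_pow_iff_right hs.one_lt).mp h1
    have h3 := hs.factorization_pos_of_dvd index_ne_zero_of_finite hsd
    omega

theorem Datum.card_commutator {R : Subgroup G} [Fact m.Prime] (hR : SylowIn m ⊤ R) :
    Nat.card (⁅R, R⁆ : Subgroup G) = m := by
  have hr := hd.prime_m
  have hAn := hd.normal
  have hm0 : 0 < m := hr.pos
  set D := R ⊓ C u with hDdef
  set Zr := R ⊓ center G with hZrdef
  have hD := sylowIn_inf (H := C u) hR (hd.normalizer_eq ▸ le_top)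
  have hZ := sylowIn_inf (H := center G) hR (by rw [normalizer_eq_top (center G)]; exact le_top)
  -- an element of `R` outside `C u`
  obtain ⟨y, hyR, hyA⟩ : ∃ y ∈ R, y ∉ C u := by
    obtain ⟨y, hy, hyA⟩ := hd.exists_pel_outside (r := m) dvd_rfl
    obtain ⟨c, -, hc⟩ := hR.conj_mem hy (mem_top y)
    exact ⟨_, hc, fun h => hyA (by simpa [mul_assoc] using hAn.conj_mem _ h c⁻¹)⟩
  -- orders
  have hfact : (Nat.card (C u)).factorization m = (Nat.card (center G)).factorization m + 1 := by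
    have hrelA : (C u).relIndex (C y) = m := by
      refine ((Nat.dvd_prime hr).mp (hd.index_eq ▸ relIndex_dvd_index_of_normal (C u) (C y))).resolve_left
        fun h => hyA (relIndex_eq_one.mp h (self_mem_C y))
    have hinf : C y ⊓ C u = center G := le_antisymm
      (fun x hx => hd.center_of_notMem hyA hx.2 hx.1) (le_inf (center_le_C y) (center_le_C u))
    have h1 := relIndex_mul_relIndex ⊥ (C y ⊓ C u) (C y) bot_le inf_le_left
    rw [relIndex_bot_left, relIndex_bot_left, inf_relIndex_left, hinf, hrelA] at h1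
    have h2 := card_C_mul_cl y
    rw [hd.cl_of_notMem hyA, ← h1, ← card_C_mul_cl u, hd.cl_u] at h2
    have h3 : Nat.card (C u) = Nat.card (center G) * (m * n) :=
      (Nat.eq_of_mul_eq_mul_right hm0 (h2.symm.trans (by ring)))
    have hn0 : n ≠ 0 := by have := hd.sizes.one_lt_n; omega
    rw [h3, Nat.factorization_mul Nat.card_pos.ne' (mul_ne_zero hr.ne_zero hn0), Finsupp.add_apply,
      Nat.factorization_mul hr.ne_zero hn0, Finsupp.add_apply, hr.factorization_self,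
      Nat.factorization_eq_zero_of_not_dvd (hd.sizes.not_dvd_n hr dvd_rfl), add_zero]
  -- the map `d ↦ [y, d]` on `D`
  have hcomm : ∀ {a b : G}, a ∈ C u → b ∈ C u → a * b = b * a := fun ha hb => hd.comm ha hb
  let ψ : D →* G :=
    { toFun := fun d => y * d * y⁻¹ * (d : G)⁻¹
      map_one' := by simp
      map_mul' := fun a b => by
        have ha : (a : G) ∈ C u := a.2.2
        have hb : (b : G) ∈ C u := b.2.2
        have hb' : y * b * y⁻¹ * (b : G)⁻¹ ∈ C u := mul_mem (hAn.conj_mem _ hb y) (inv_mem hb)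
        calc y * ((a * b : D) : G) * y⁻¹ * ((a * b : D) : G)⁻¹
            = y * a * y⁻¹ * (y * b * y⁻¹ * (b : G)⁻¹ * (a : G)⁻¹) := by rw [Subgroup.coe_mul]; group
          _ = y * a * y⁻¹ * ((a : G)⁻¹ * (y * b * y⁻¹ * (b : G)⁻¹)) := by rw [hcomm hb' (inv_mem ha)]
          _ = _ := by group }
  have hψ : ∀ d : D, ψ d = y * d * y⁻¹ * (d : G)⁻¹ := fun _ => rfl
  have hker : Nat.card ψ.ker = Nat.card Zr := by
    refine Nat.card_congr ((Equiv.subtypeSubtypeEquivSubtypeExists _ _).trans (Equiv.subtypeEquivRight fun x =>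
      ⟨fun ⟨hxD, hx⟩ => ?_, fun hx => ⟨⟨hx.1, center_le_C u hx.2⟩, ?_⟩⟩))
    · refine ⟨hxD.1, hd.center_of_notMem hyA hxD.2 (mem_C.mpr ?_)⟩
      rw [MonoidHom.mem_ker, hψ] at hx
      exact (mul_inv_eq_iff_eq_mul.mp (mul_inv_eq_one.mp hx)).symm
    · rw [MonoidHom.mem_ker, hψ]
      show y * x * y⁻¹ * x⁻¹ = 1
      rw [mem_center_iff.mp hx.2 y, mul_inv_cancel_right, mul_inv_cancel]
  have hrange : Nat.card ψ.range = m := by
    have h1 := card_mul_index ψ.ker
    rw [index_ker, hker, hD.card, hZ.card, hfact, pow_succ] at h1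
    exact Nat.eq_of_mul_eq_mul_left (pow_pos hm0 _) h1
  set L := ψ.range with hL
  have hLc : L ≤ center G := by
    obtain ⟨d, hdA, hdR, hdr, hdc, hshift, -⟩ := hd.exists_central_mod (r := m) dvd_rfl hR
    set z : L := ⟨ψ ⟨d, hdR, hdA⟩, _, rfl⟩ with hzdef
    have hz1 : z ≠ 1 := fun h => hdc (hd.center_of_notMem hyA hdA (mem_C.mpr (by
      have h1 : y * d * y⁻¹ * d⁻¹ = 1 := congrArg Subtype.val h
      exact (mul_inv_eq_iff_eq_mul.mp (mul_inv_eq_one.mp h1)).symm)))
    intro x hx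
    obtain ⟨i, hi⟩ := mem_zpowers_iff.mp (mem_zpowers_of_prime_card hrange (g' := (⟨x, hx⟩ : L)) hz1)
    have : (z : G) ^ i = x := by rw [← SubgroupClass.coe_zpow, hi]
    rw [← this]
    exact zpow_mem (hshift y hyR) i
  haveI : L.Normal := ⟨fun x hx g => by
    rwa [mem_center_iff.mp (hLc hx) g, mul_inv_cancel_right]⟩
  have hcommQ : ∀ d ∈ D, Commute (y : G ⧸ L) (d : G ⧸ L) := by
    intro d hd'
    have h1 : ((y * d * y⁻¹ * d⁻¹ : G) : G ⧸ L) = 1 := (QuotientGroup.eq_one_iff _).mpr ⟨⟨d, hd'⟩, rfl⟩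
    rw [QuotientGroup.mk_mul, QuotientGroup.mk_mul, QuotientGroup.mk_mul, QuotientGroup.mk_inv,
      QuotientGroup.mk_inv, mul_inv_eq_one, mul_inv_eq_iff_eq_mul] at h1
    exact h1
  have hdec : ∀ g ∈ R, ∃ i : ℤ, ∃ d ∈ D, g = y ^ i * d := by
    intro g hg
    have hy1 : (y : G ⧸ C u) ≠ 1 := fun h => hyA ((QuotientGroup.eq_one_iff y).mp h)
    obtain ⟨i, hi⟩ := mem_zpowers_iff.mp (mem_zpowers_of_prime_card
      ((index_eq_card (C u)).symm.trans hd.index_eq) (g' := (g : G ⧸ C u)) hy1)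
    refine ⟨i, (y ^ i)⁻¹ * g, mem_inf.mpr ⟨mul_mem (inv_mem (zpow_mem hyR i)) hg, ?_⟩,
      (mul_inv_cancel_left _ _).symm⟩
    rw [← QuotientGroup.mk_zpow, QuotientGroup.eq] at hi
    exact hi
  have hle : ⁅R, R⁆ ≤ L := by
    rw [commutator_le]
    intro a ha b hb
    obtain ⟨i, d, hd', rfl⟩ := hdec a ha
    obtain ⟨j, e, he, rfl⟩ := hdec b hb
    have hde : Commute (d : G ⧸ L) (e : G ⧸ L) :=
      congrArg (QuotientGroup.mk (s := L)) (hcomm hd'.2 he.2)
    have h : Commute ((y : G ⧸ L) ^ i * (d : G ⧸ L)) ((y : G ⧸ L) ^ j * (e : G ⧸ L)) :=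
      ((Commute.zpow_zpow_self _ i j).mul_right ((hcommQ e he).zpow_left i)).mul_left
        (((hcommQ d hd').zpow_left j).symm.mul_right hde)
    refine (QuotientGroup.eq_one_iff _).mp ?_
    rw [commutatorElement_def, QuotientGroup.mk_mul, QuotientGroup.mk_mul, QuotientGroup.mk_mul,
      QuotientGroup.mk_inv, QuotientGroup.mk_inv, QuotientGroup.mk_mul, QuotientGroup.mk_mul,
      QuotientGroup.mk_zpow, QuotientGroup.mk_zpow, h.eq, mul_inv_cancel_right, mul_inv_cancel]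
  have hge : L ≤ ⁅R, R⁆ := by
    rintro _ ⟨d, rfl⟩
    rw [hψ, ← commutatorElement_def]
    exact commutator_mem_commutator hyR d.2.1
  rw [le_antisymm hle hge, hrange]

end

end CfsgLib.ClassSizes3
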